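import Cfsg.Agent.Lib.GLC.Singer
import Cfsg.Agent.Lib.Linear.Transv
import Cfsg.Agent.Lib.Linear.Simple

/-! Normal 2-coverings: general lemmas, and the linear groups `SL₂, SL₃, SL₄`. -/

namespace Cfsg.Lib.Cov

open Module Polynomial Matrix Cfsg.Lib.GLC

/-- `G` is the union of the conjugates of two proper subgroups. -/
def Cov (G : Type*) [Group G] : Prop :=
  ∃ H K : Subgroup G, H ≠ ⊤ ∧ K ≠ ⊤ ∧ ∀ g : G, ∃ x : G, x * g * x⁻¹ ∈ H ∨ x * g * x⁻¹ ∈ K

section Grp
variable {G G' : Type*} [Group G] [Group G']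

theorem Cov.of_surjective (h : Cov G) (f : G →* G') (hf : Function.Surjective f)
    (hp : ∀ H : Subgroup G, H.map f = ⊤ → H = ⊤) : Cov G' := by
  obtain ⟨H, K, hH, hK, h⟩ := h
  refine ⟨H.map f, K.map f, fun e => hH (hp _ e), fun e => hK (hp _ e), fun g => ?_⟩
  obtain ⟨g, rfl⟩ := hf g
  obtain ⟨x, hx⟩ := h g
  refine ⟨f x, ?_⟩
  rw [← map_inv, ← map_mul, ← map_mul]
  exact hx.imp (Subgroup.mem_map_of_mem f) (Subgroup.mem_map_of_mem f)

theorem Cov.of_equiv (h : Cov G) (e : G ≃* G') : Cov G' :=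
  h.of_surjective e e.surjective fun H hH => eq_top_iff.2 fun g _ => by
    obtain ⟨x, hx, e'⟩ : e g ∈ H.map (e : G →* G') := hH ▸ Subgroup.mem_top _
    exact e.injective e' ▸ hx

theorem Cov.quot (h : Cov G) (hp : commutator G = ⊤) : Cov (G ⧸ Subgroup.center G) :=
  h.of_surjective (QuotientGroup.mk' _) (QuotientGroup.mk'_surjective _) fun H hH => by
    have key : ∀ g : G, ∃ x ∈ H, ∃ z ∈ Subgroup.center G, g = x * z := fun g => by
      obtain ⟨x, hx, e⟩ : QuotientGroup.mk' _ g ∈ H.map (QuotientGroup.mk' (Subgroup.center G)) :=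
        hH ▸ Subgroup.mem_top _
      exact ⟨x, hx, x⁻¹ * g, QuotientGroup.eq.1 e, by simp⟩
    rw [eq_top_iff, ← hp, commutator_def, Subgroup.commutator_le]
    intro a _ b _
    obtain ⟨x, hx, z, hz, rfl⟩ := key a
    obtain ⟨y, hy, w, hw, rfl⟩ := key b
    have hz' := Subgroup.mem_center_iff.1 hz
    have hw' := Subgroup.mem_center_iff.1 hw
    have : x * z * (y * w) * (x * z)⁻¹ * (y * w)⁻¹ = x * y * x⁻¹ * y⁻¹ := by
      calc _ = x * (z * (y * w)) * z⁻¹ * x⁻¹ * (y * w)⁻¹ := by group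
        _ = x * y * (w * x⁻¹) * w⁻¹ * y⁻¹ := by rw [← hz']; group
        _ = _ := by rw [← hw']; group
    rw [commutatorElement_def, this]
    exact H.mul_mem (H.mul_mem (H.mul_mem hx hy) (H.inv_mem hx)) (H.inv_mem hy)

/-- A multiplicatively closed predicate on a finite group gives a subgroup. -/
def subOf [Finite G] (P : G → Prop) (h1 : P 1) (hm : ∀ a b, P a → P b → P (a * b)) :
    Subgroup G where
  carrier := {g | P g}
  one_mem' := h1
  mul_mem' := hm _ _
  inv_mem' {g} hg := by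
    have h : ∀ n : ℕ, P (g ^ n) := fun n => by
      induction n with
      | zero => simpa
      | succ n ih => rw [pow_succ]; exact hm _ _ ih hg
    have : g⁻¹ = g ^ (orderOf g - 1) := by
      rw [inv_eq_iff_mul_eq_one, ← pow_succ', Nat.sub_add_cancel (orderOf_pos g), pow_orderOf_eq_one]
    exact this ▸ h _

theorem cov_of [Finite G] (P Q : G → Prop) (P1 : P 1) (Pm : ∀ a b, P a → P b → P (a * b))
    (Q1 : Q 1) (Qm : ∀ a b, Q a → Q b → Q (a * b)) (hP : ∃ g, ¬ P g) (hQ : ∃ g, ¬ Q g)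
    (h : ∀ g, ∃ x, P (x * g * x⁻¹) ∨ Q (x * g * x⁻¹)) : Cov G :=
  ⟨subOf P P1 Pm, subOf Q Q1 Qm,
    fun e => let ⟨g, hg⟩ := hP; hg (show g ∈ subOf P P1 Pm from e ▸ Subgroup.mem_top g),
    fun e => let ⟨g, hg⟩ := hQ; hg (show g ∈ subOf Q Q1 Qm from e ▸ Subgroup.mem_top g), h⟩

end Grp

variable {F V W : Type*} [Field F] [AddCommGroup V] [Module F V] [AddCommGroup W] [Module F W]

theorem exists_factor (φ : V →ₗ[F] W) (l : V →ₗ[F] F) (h : ∀ v, φ v = 0 → l v = 0) :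
    ∃ m : W →ₗ[F] F, ∀ v, m (φ v) = l v := by
  obtain ⟨m, hm⟩ : l ∈ LinearMap.range φ.dualMap := by
    rw [LinearMap.range_dualMap_eq_dualAnnihilator_ker, Submodule.mem_dualAnnihilator]
    exact h
  exact ⟨m, fun v => LinearMap.congr_fun hm v⟩

theorem exists_root_poly [Finite F] {h χ : F[X]} (h1 : h.Monic) (h2 : Irreducible h) (hχ : χ.Monic)
    (H : ∀ φ : F[X], φ.Monic → Irreducible φ → φ ∣ χ → h.natDegree ∣ φ.natDegree) :
    ∃ R : F[X], χ ∣ h.comp R := by
  classical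
  obtain ⟨μ, hμ, rfl⟩ := exists_prod_eq hχ
  have key : ∀ φ : μ.toFinset, ∃ R : F[X], φ.1 ∣ h.comp R := fun ⟨φ, hφ⟩ => by
    have hφ := Multiset.mem_toFinset.1 hφ
    haveI : Fact (Irreducible φ) := ⟨(hμ φ hφ).2⟩
    haveI : Finite (AdjoinRoot φ) := by
      haveI := (AdjoinRoot.powerBasis (hμ φ hφ).1.ne_zero).finite
      exact Module.finite_of_finite F
    obtain ⟨a, ha⟩ := exists_minpoly_eq (K := AdjoinRoot φ) h1 h2 (by
      rw [finrank_adjoinRoot]
      exact H φ (hμ φ hφ).1 (hμ φ hφ).2 (Multiset.dvd_prod hφ))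
    obtain ⟨R, rfl⟩ := AdjoinRoot.mk_surjective a
    refine ⟨R, AdjoinRoot.mk_eq_zero.1 ?_⟩
    rw [← AdjoinRoot.aeval_eq, aeval_comp, AdjoinRoot.aeval_eq, ← ha, minpoly.aeval]
  choose R hR using key
  obtain ⟨r, hr⟩ := Ideal.exists_forall_sub_mem_ideal
    (I := fun φ : μ.toFinset => Ideal.span {φ.1}) (fun φ ψ hne =>
      (Ideal.isCoprime_span_singleton_iff _ _).2 (isCoprime_of_ne
        (hμ _ (Multiset.mem_toFinset.1 φ.2)).1 (hμ _ (Multiset.mem_toFinset.1 φ.2)).2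
        (hμ _ (Multiset.mem_toFinset.1 ψ.2)).1 (hμ _ (Multiset.mem_toFinset.1 ψ.2)).2
        fun e => hne (Subtype.ext e))) R
  have h3 : ∀ φ ∈ μ, φ ∣ h.comp r := fun φ hφ => by
    have := (Ideal.mem_span_singleton.1 (hr ⟨φ, Multiset.mem_toFinset.2 hφ⟩)).trans
      (sub_dvd_eval_sub r (R ⟨φ, Multiset.mem_toFinset.2 hφ⟩) (h.map C))
    have := dvd_add this (hR ⟨φ, Multiset.mem_toFinset.2 hφ⟩)
    simpa only [eval_map, Polynomial.comp, sub_add_cancel] using this
  have h4 : μ.prod ∣ h.comp r ^ μ.card := by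
    rw [← Multiset.prod_replicate, ← Multiset.map_const']
    conv_lhs => rw [← μ.map_id]
    exact Multiset.prod_dvd_prod_of_dvd _ _ h3
  letI := Fintype.ofFinite F
  have h5 : ∀ (y : F[X]) (n : ℕ), (FiniteField.frobeniusAlgHom F F[X] ^ n) y =
      y ^ Fintype.card F ^ n := fun y n => by
    rw [AlgHom.coe_pow, FiniteField.coe_frobeniusAlgHom, pow_iterate]
  refine ⟨r ^ Fintype.card F ^ μ.card, h4.trans ?_⟩
  rw [← h5, comp_eq_aeval (q := (FiniteField.frobeniusAlgHom F F[X] ^ _) r), aeval_algHom_apply,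
    ← comp_eq_aeval, h5]
  exact pow_dvd_pow _ (Nat.lt_pow_self Fintype.one_lt_card).le

theorem exists_algHom [Finite F] [Module.Finite F V] (E : Type*) [Field E] [Algebra F E]
    [Finite E] (f : End F V)
    (H : ∀ φ : F[X], φ.Monic → Irreducible φ → φ ∣ f.charpoly → finrank F E ∣ φ.natDegree) :
    ∃ ρ : E →ₐ[F] End F V, ∀ a, ∃ R : F[X], ρ a = aeval f R := by
  let pb := Field.powerBasisOfFiniteOfSeparable F E
  have hi := pb.isIntegral_gen
  obtain ⟨R, Q, hR⟩ := exists_root_poly (minpoly.monic hi) (minpoly.irreducible hi)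
    f.charpoly_monic (by rwa [pb.natDegree_minpoly, ← pb.finrank])
  have h0 : aeval (aeval f R) (minpoly F pb.gen) = 0 := by
    rw [← aeval_comp, hR, map_mul, LinearMap.aeval_self_charpoly, zero_mul]
  refine ⟨pb.lift _ h0, fun a => ?_⟩
  obtain ⟨S, rfl⟩ := pb.exists_eq_aeval' a
  exact ⟨S.comp R, by rw [pb.lift_aeval, aeval_comp]⟩

/-- Two roots of one irreducible polynomial in `End` are similar. -/
theorem sim_of_aeval [Module.Finite F V] [Module.Finite F W] {h : F[X]} (h1 : h.Monic)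
    (h2 : Irreducible h) {f : End F V} {g : End F W} (hf : aeval f h = 0) (hg : aeval g h = 0)
    (hd : finrank F V = finrank F W) : Sim f g ∧ f.IsSemisimple := by
  have aux : ∀ μ : Multiset F[X], (∀ P ∈ μ, PP P) → (∀ P ∈ μ, P ∣ h) →
      μ = .replicate μ.card h := fun μ hp hd => Multiset.eq_replicate_card.2 fun P hP =>
    eq_of_monic_of_associated (hp P hP).monic h1 ((h2.dvd_iff.1 (hd P hP)).resolve_left
      (not_isUnit_of_natDegree_pos _ (hp P hP).natDegree_pos)).symm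
  have e1 := aux _ (typ_pp f) ((blocks_typ f).aeval_eq_zero_iff.1 hf)
  have e2 := aux _ (typ_pp g) ((blocks_typ g).aeval_eq_zero_iff.1 hg)
  refine ⟨sim_iff_typ_eq.2 ?_, isSemisimple_iff_typ.2 fun P hP => ?_⟩
  · rw [(blocks_typ f).finrank_eq, (blocks_typ g).finrank_eq, e1, e2] at hd
    simp only [Multiset.map_replicate, Multiset.sum_replicate, smul_eq_mul] at hd
    rw [e1, e2, Nat.eq_of_mul_eq_mul_right h2.natDegree_pos hd]
  · rw [e1] at hP
    exact Multiset.eq_of_mem_replicate hP ▸ h2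

theorem exists_eigen [Module.Finite F V] {f : End F V} {φ : F[X]} (h1 : φ.Monic)
    (h2 : φ.natDegree = 1) (h3 : φ ∣ f.charpoly) : ∃ (v : V) (c : F), v ≠ 0 ∧ f v = c • v := by
  have : f.HasEigenvalue (-φ.coeff 0) := by
    rw [End.hasEigenvalue_iff_isRoot_charpoly]
    refine IsRoot.dvd ?_ h3
    rw [h1.eq_X_add_C h2]; simp
  obtain ⟨v, hv⟩ := this.exists_hasEigenvector
  exact ⟨v, _, hv.2, hv.apply_eq_smul⟩

theorem cov_sl [Finite F] {n d : ℕ} (hd : 2 ≤ d) (hdn : d ∣ n) (hn : 2 ≤ n)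
    (H : ∀ P φ : F[X], P.Monic → P.natDegree = n → (∀ ψ : F[X], ψ.Monic → ψ ∣ P → ψ.natDegree ≠ 1) →
      φ.Monic → Irreducible φ → φ ∣ P → d ∣ φ.natDegree) :
    Cov (SpecialLinearGroup (Fin n) F) := by
  classical
  obtain ⟨p, hp⟩ := CharP.exists F
  haveI := Fact.mk (CharP.char_is_prime F p)
  haveI : NeZero d := ⟨by omega⟩
  let E := FiniteField.Extension F p d
  have hE : finrank F E = d := FiniteField.finrank_extension F p d
  let pb := Field.powerBasisOfFiniteOfSeparable F E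
  have hi := pb.isIntegral_gen
  have h1 := minpoly.monic hi
  have h2 := minpoly.irreducible hi
  have h3 : (minpoly F pb.gen).natDegree = d := by rw [pb.natDegree_minpoly, ← pb.finrank, hE]
  generalize hh : minpoly F pb.gen = h at h1 h2 h3
  obtain ⟨k, rfl⟩ := hdn
  obtain ⟨J, hJ⟩ := exists_gl_blocks (n := Fin (d * k)) (μ := .replicate k h)
    (fun P hP => Multiset.eq_of_mem_replicate hP ▸ ⟨h1, fun h0 => by
      have := (h2.dvd_iff.1 (X_dvd_iff.2 h0)).resolve_left not_isUnit_X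
      have := natDegree_eq_of_degree_eq (degree_eq_degree_of_associated this)
      rw [natDegree_X] at this; omega⟩) (by simp [h3, mul_comm])
  have hJ0 : aeval (toLin' J.1) h = 0 :=
    hJ.aeval_eq_zero_iff.2 fun P hP => Multiset.eq_of_mem_replicate hP ▸ dvd_rfl
  let i : Fin (d * k) := ⟨0, by omega⟩
  let j : Fin (d * k) := ⟨1, by omega⟩
  have hij : i ≠ j := by simp [i, j]
  haveI : Nontrivial (Fin (d * k) → F) := ⟨Pi.single i 1, 0, by simp⟩
  let T := SpecialLinearGroup.toGL (n := Fin (d * k)) (R := F)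
  have hT : ∀ g, (T g).1 = g := fun _ => rfl
  refine cov_of (fun g => ∃ c : F, (T g).1 *ᵥ Pi.single i 1 = c • Pi.single i 1)
    (fun g => Commute (T g) J) ⟨1, by rw [map_one, Units.val_one, one_mulVec, one_smul]⟩ ?_
    (map_one T ▸ .one_left _) (fun a b ha hb => map_mul T a b ▸ ha.mul_left hb)
    ⟨(⟨j, i, hij.symm, 1⟩ : TransvectionStruct _ F).toSpecialLinearGroup, ?_⟩ ?_ fun g => ?_
  · rintro a b ⟨c, hc⟩ ⟨e, he⟩
    exact ⟨e * c, by rw [map_mul, Units.val_mul, ← mulVec_mulVec, he, mulVec_smul, hc,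
      smul_smul]⟩
  · rintro ⟨c, hc⟩
    have := congrFun hc j
    change (transvection j i (1 : F) *ᵥ Pi.single i 1) j = _ at this
    simp [transvection, hij, hij.symm] at this
  · by_contra! hc
    obtain ⟨c, hc⟩ := mem_range_scalar_of_commute_transvectionStruct
      (M := J.1) fun t => congrArg Units.val (hc t.toSpecialLinearGroup).eq
    have : aeval (toLin' J.1) (X - C c) = 0 := by
      rw [aeval_toLin', ← hc]; simp [scalar, algebraMap_eq_diagonal]
    have := hJ.aeval_eq_zero_iff.1 this h (Multiset.mem_replicate.2 ⟨by rintro rfl; omega, rfl⟩)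
    have := natDegree_le_of_dvd this (X_sub_C_ne_zero c)
    rw [natDegree_X_sub_C] at this; omega
  · by_cases he : ∃ (v : Fin (d * k) → F) (c : F), v ≠ 0 ∧ (T g).1 *ᵥ v = c • v
    · obtain ⟨v, c, hv, he⟩ := he
      obtain ⟨x, a, ha, rfl⟩ := Linear.exists_SL_mulVec_single i hv
      refine ⟨x⁻¹, .inl ⟨c, ?_⟩⟩
      have e : (Pi.single i a : Fin (d * k) → F) = a • Pi.single i 1 := by
        rw [← Pi.single_smul, smul_eq_mul, mul_one]
      rw [← hT, e, mulVec_smul, mulVec_smul, smul_comm] at he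
      rw [inv_inv, map_mul, map_mul, Units.val_mul, Units.val_mul, ← mulVec_mulVec,
        ← mulVec_mulVec, smul_right_injective _ ha he, mulVec_smul, mulVec_mulVec, map_inv,
        Units.inv_mul, one_mulVec]
    · obtain ⟨ρ, hρ⟩ := exists_algHom E (toLin' (T g).1) fun φ h1 h2 h3 => hE.symm ▸ H _ φ
        (toLin' (T g).1).charpoly_monic (by simp) (fun ψ h1 h2 h3 => he (exists_eigen h1 h3 h2))
        h1 h2 h3
      obtain ⟨R, hR⟩ := hρ pb.gen
      have h4 : aeval (ρ pb.gen) h = 0 := by rw [aeval_algHom_apply, ← hh, minpoly.aeval, map_zero]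
      obtain ⟨hs, hs'⟩ := sim_of_aeval h1 h2 hJ0 h4 rfl
      rw [hR, aeval_toLin'] at hs
      obtain ⟨y, hy⟩ := isConj_iff_sim.2 hs
      obtain ⟨z, hz, hz'⟩ := mem_detC_iff.1 (detC_eq_top_of_isSemisimple hs' ▸
        Subgroup.mem_top (GeneralLinearGroup.det y) : _ ∈ detC (toLin' J.1))
      obtain ⟨x, hx⟩ : ∃ x, T x = z * y⁻¹ := ⟨⟨(z * y⁻¹).1, by
        have : GeneralLinearGroup.det (z * y⁻¹) = 1 := by simp [hz']
        exact congrArg Units.val this⟩, Units.ext rfl⟩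
      have h5 : Commute (T g) (y * J * y⁻¹) := Commute.units_val_iff.1 (by
        rw [Units.val_mul, Units.val_mul, hy.eq, Units.mul_inv_cancel_right]
        exact commute_aeval (.refl (T g).1) R)
      refine ⟨x, .inr ?_⟩
      rw [map_mul, map_mul, map_inv, hx]
      have h6 := h5.map (MulAut.conj (z * y⁻¹))
      simp only [MulAut.conj_apply] at h6
      rwa [show z * y⁻¹ * (y * J * y⁻¹) * (z * y⁻¹)⁻¹ = z * J * z⁻¹ by group, hz.eq,
        mul_inv_cancel_right] at h6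

theorem dvd_of_no_root {P φ : F[X]} (hP : P.Monic)
    (h : ∀ ψ : F[X], ψ.Monic → ψ ∣ P → ψ.natDegree ≠ 1) (h1 : φ.Monic) (h2 : Irreducible φ)
    (h3 : φ ∣ P) : 2 ≤ φ.natDegree ∧ φ.natDegree ≤ P.natDegree ∧
      φ.natDegree + 1 ≠ P.natDegree := by
  have := h φ h1 h3
  have := h2.natDegree_pos
  obtain ⟨ψ, rfl⟩ := h3
  have h4 := h1.of_mul_monic_left hP
  have := h ψ h4 (dvd_mul_left _ _)
  rw [h1.natDegree_mul h4]
  omega

theorem cov_psl [Finite F] {n d : ℕ} (h : n = 2 ∧ d = 2 ∨ n = 3 ∧ d = 3 ∨ n = 4 ∧ d = 2)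
    (hq : n = 2 → 4 ≤ Nat.card F) : Cov (ProjectiveSpecialLinearGroup (Fin n) F) := by
  refine Cov.quot (cov_sl (d := d) (by omega) ?_ (by omega) fun P φ hP hn H h1 h2 h3 => ?_)
    (Linear.commutator_SL_eq_top ?_)
  · rcases h with ⟨rfl, rfl⟩ | ⟨rfl, rfl⟩ | ⟨rfl, rfl⟩ <;> decide
  · have := dvd_of_no_root hP H h1 h2 h3
    rcases h with ⟨rfl, rfl⟩ | ⟨rfl, rfl⟩ | ⟨rfl, rfl⟩ <;> omega
  · rw [Fintype.card_fin]
    by_cases h2 : n = 2
    · exact .inr (Linear.exists_ne_zero_sq_ne_one (hq h2))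
    · omega

end Cfsg.Lib.Cov
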