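import Cfsg.Agent.Lib.Cov.Basic
import Cfsg.Agent.Lib.Symp.Group
import Cfsg.Agent.Lib.Orth.Class
import Cfsg.Agent.Lib.Oct.CD

/-! Normal 2-coverings of `Sp_{2m}(q)` and `G₂(q)` for even `q` (Dye's argument). -/

namespace Cfsg.Lib.Cov

open Module Matrix Cfsg.Lib.Symp
open scoped MatrixGroups

variable {F V : Type*} [Field F] [AddCommGroup V] [Module F V]

theorem exists_rep [Module.Finite F V] (B : LinearMap.BilinForm F V)
    (h : ∀ x, (∀ y, B x y = 0) → x = 0) (l : V →ₗ[F] F) : ∃ y, ∀ x, B y x = l x := by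
  have : Function.Injective B := (injective_iff_map_eq_zero B).2 fun x hx =>
    h x fun y => by rw [hx]; rfl
  obtain ⟨y, hy⟩ := (LinearMap.injective_iff_surjective_of_finrank_eq_finrank
    Subspace.dual_finrank_eq.symm).1 this l
  exact ⟨y, fun x => by rw [hy]⟩

theorem cov_isom_even [Finite F] [Module.Finite F V] (h2 : (2 : F) = 0)
    {B : LinearMap.BilinForm F V} (hA : B.IsAlt) (hB : B.Nondegenerate) (Q : V → F)
    (Qa : ∀ x y, Q (x + y) = Q x + Q y + B x y) (Qs : ∀ (c : F) x, Q (c • x) = c ^ 2 * Q x)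
    {u₁ u₂ : V} (h₁ : u₁ ≠ 0) (h₂ : u₂ ≠ 0) (h₃ : u₁ + u₂ ≠ 0) (h₄ : B u₁ u₂ = 0) :
    Cov (isom B) := by
  haveI : Finite V := Module.finite_of_finite F
  haveI : Finite (V ≃ₗ[F] V) := .of_injective _ DFunLike.coe_injective
  haveI : CharP F 2 := CharTwo.of_one_ne_zero_of_two_eq_zero one_ne_zero h2
  have sy : ∀ x y, B x y = B y x := fun x y => by
    have := hA.neg_eq x y; linear_combination this + B x y * h2
  let q : V → V → F := fun v x => Q x + B v x ^ 2
  have qa : ∀ v x y, q v (x + y) = q v x + q v y + B x y := fun v x y => by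
    simp only [q, Qa, map_add]; linear_combination B v x * B v y * h2
  have qt : ∀ v u c x, q v ((tv hA u c).1 x) = q v x + (c + c ^ 2 * q v u) * B u x ^ 2 :=
    fun v u c x => by
      rw [tv_apply, qa]
      simp only [q, Qs, map_smul, smul_eq_mul, sy x u]; ring
  have fix : ∀ g : isom B, ∃ v, ∀ x, q v (g.1 x) = q v x := fun g => by
    let r := (frobeniusEquiv F 2).symm
    have hr : ∀ a, r a ^ 2 = a := fun a => (frobeniusEquiv F 2).apply_symm_apply a
    have hr' : ∀ a, r (a ^ 2) = a := fun a => (frobeniusEquiv F 2).symm_apply_apply a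
    let l : V →ₗ[F] F :=
      { toFun := fun x => r (Q (g.1 x) - Q x)
        map_add' := fun x y => by
          rw [← map_add r, map_add, Qa, Qa, g.2]; congr 1; ring
        map_smul' := fun c x => by
          rw [map_smul, Qs, Qs, ← mul_sub, map_mul, hr']; rfl }
    obtain ⟨m, hm⟩ := exists_factor (g.1.toLinearMap - LinearMap.id) l fun x hx => by
      have : g.1 x = x := sub_eq_zero.1 hx
      simp [l, this]
    obtain ⟨v, hv⟩ := exists_rep B hB.1 m
    refine ⟨v, fun x => ?_⟩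
    have e1 : B v (g.1 x) - B v x = r (Q (g.1 x) - Q x) := by
      rw [← map_sub, hv]; exact hm x
    have e2 := hr (Q (g.1 x) - Q x)
    rw [← e1] at e2
    simp only [q]
    linear_combination e2 + (Q (g.1 x) - Q x + B v (g.1 x) * B v x - B v x ^ 2) * h2
  have move : ∀ v w t, t ^ 2 + t = Q v + Q w → ∀ g : isom B, (∀ x, q w (g.1 x) = q w x) →
      ∃ a : isom B, ∀ x, q v ((a * g * a⁻¹).1 x) = q v x := fun v w t ht g hg => by
    obtain ⟨c, hc⟩ : ∃ c, c + c ^ 2 * q v (v + w) = 1 := by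
      have e : q v (v + w) = (t + B v w) ^ 2 + (t + B v w) := by
        simp only [q, Qa, map_add, hA.self_eq_zero v]
        linear_combination -ht - t * B v w * h2
      by_cases h0 : q v (v + w) = 0
      · exact ⟨1, by simp [h0]⟩
      · exact ⟨(t + B v w) / q v (v + w), by field_simp; linear_combination -e⟩
    have e : ∀ x, q v ((tv hA (v + w) c).1 x) = q w x := fun x => by
      rw [qt, hc]
      simp only [q, map_add, LinearMap.add_apply]
      linear_combination (B v x ^ 2 + B v x * B w x) * h2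
    refine ⟨tv hA (v + w) c, fun x => ?_⟩
    rw [Subgroup.coe_mul, Subgroup.coe_mul, LinearEquiv.mul_apply, LinearEquiv.mul_apply, e, hg,
      ← e, ← LinearEquiv.mul_apply, ← Subgroup.coe_mul, mul_inv_cancel]; rfl
  have prop : ∀ v, ∃ g : isom B, ¬ ∀ x, q v (g.1 x) = q v x := fun v => by
    by_contra! hc
    have : ∀ u, u ≠ 0 → q v u = 1 := fun u hu => by
      obtain ⟨x, hx⟩ : ∃ x, B u x ≠ 0 := by
        by_contra! h; exact hu (hB.1 u h)
      have := hc (tv hA u 1) x
      rw [qt, add_eq_left, mul_eq_zero] at this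
      linear_combination this.resolve_right (pow_ne_zero 2 hx) - h2
    have e := qa v u₁ u₂
    rw [this _ h₁, this _ h₂, this _ h₃, h₄] at e
    exact one_ne_zero (α := F) (by linear_combination -e)
  have Q0 : Q 0 = 0 := by simpa using Qs 0 0
  obtain ⟨v, hv⟩ : ∃ v, ∀ w, (∃ t, t ^ 2 + t = Q 0 + Q w) ∨ ∃ t, t ^ 2 + t = Q v + Q w := by
    by_cases h : ∃ v, ∀ t, t ^ 2 + t ≠ Q v
    · obtain ⟨v, hv⟩ := h
      refine ⟨v, fun w => or_iff_not_imp_left.2 fun h => Orth.exists_sq_add_eq h2 hv fun t ht =>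
        h ⟨t, by rw [Q0, zero_add, ht]⟩⟩
    · push Not at h
      exact ⟨0, fun w => .inl (by simpa [Q0] using h w)⟩
  refine cov_of (fun g => ∀ x, q 0 (g.1 x) = q 0 x) (fun g => ∀ x, q v (g.1 x) = q v x)
    (fun _ => rfl) (fun a b ha hb x => (ha _).trans (hb x)) (fun _ => rfl)
    (fun a b ha hb x => (ha _).trans (hb x)) (prop 0) (prop v) fun g => ?_
  obtain ⟨w, hw⟩ := fix g
  rcases hv w with ⟨t, ht⟩ | ⟨t, ht⟩
  · exact (move _ _ t ht g hw).imp fun _ => .inl
  · exact (move _ _ t ht g hw).imp fun _ => .inr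

theorem cov_psp_even [Fintype F] {m : ℕ} (hm : 2 ≤ m) (h : ¬ Odd (Fintype.card F))
    (h' : ¬ (m = 2 ∧ Fintype.card F = 2)) : Cov (PSp m F) := by
  have h2 : (2 : F) = 0 := by_contra fun h2 => h (two_ne_zero_iff_odd_card.1 h2)
  let i : Fin m := ⟨0, by omega⟩
  let j : Fin m := ⟨1, by omega⟩
  have hij : i ≠ j := by simp [i, j]
  refine Cov.quot (Cov.of_equiv (cov_isom_even h2 (bil_isAlt _ F) (bil_nondegenerate _ F)
    (fun v => ∑ k, v (.inl k) * v (.inr k)) (fun x y => ?_) (fun c x => ?_)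
    (u₁ := Pi.single (.inl i) 1) (u₂ := Pi.single (.inl j) 1) (by simp) (by simp) (fun e => ?_)
    ?_) (spEquiv _ F).symm) (commutator_sp_eq_top ?_)
  · rw [bil_apply_sum, ← Finset.sum_add_distrib, ← Finset.sum_add_distrib]
    exact Finset.sum_congr rfl fun k _ => by
      simp only [Pi.add_apply]; linear_combination x (.inl k) * y (.inr k) * h2
  · rw [Finset.mul_sum]
    exact Finset.sum_congr rfl fun k _ => by simp only [Pi.smul_apply, smul_eq_mul]; ring
  · simpa [hij] using congrFun e (.inl i)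
  · simp [bil_single_inl_left]
  · rw [Fintype.card_fin]
    by_cases h3 : m = 2
    · have := Fintype.one_lt_card (α := F)
      exact .inr (.inl ⟨hm, exists_ne_zero_ne_one (by rw [Nat.card_eq_fintype_card]; omega)⟩)
    · omega

section G2
open Cfsg.Lie Cfsg.Lib.Oct

theorem exists_fixed_class (g : G2 F) :
    ∃ a : Fin 8 → F, tr a = 1 ∧ ∃ c : F, g • a = a + c • one F := by
  by_contra! hc
  obtain ⟨m, hm⟩ := exists_factor ((F ∙ one F).mkQ ∘ₗ (lin g - LinearMap.id)) tr fun a ha => by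
    by_contra h
    obtain ⟨c, e⟩ := Submodule.mem_span_singleton.1 ((Submodule.Quotient.mk_eq_zero _).1 ha)
    refine hc ((tr a)⁻¹ • a) (by simp [h]) ((tr a)⁻¹ * c) ?_
    rw [smul_smul', mul_smul, e, ← smul_add]
    simp
  obtain ⟨y, hy⟩ := exists_rep bl (fun x => eq_zero_of_bl) (m ∘ₗ (F ∙ one F).mkQ)
  have h1 : tr y = 0 := by
    rw [← bl_one, hy, LinearMap.comp_apply, Submodule.mkQ_apply,
      (Submodule.Quotient.mk_eq_zero _).2 (Submodule.mem_span_singleton_self _), map_zero]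
  have h2 : g⁻¹ • y = y + one F := by
    rw [← sub_eq_zero]
    refine eq_zero_of_bl fun a => ?_
    have := (hy (g • a - a)).trans (hm a)
    rw [map_sub, ← bl_smul g⁻¹, inv_smul_smul] at this
    simp only [map_sub, map_add, LinearMap.sub_apply, LinearMap.add_apply, one_bl]
    linear_combination this
  have := nm_smul' g⁻¹ y
  rw [h2, nm_add, nm_one, bl_one, h1] at this
  exact one_ne_zero (α := F) (by linear_combination this)

theorem exists_smul_eq_cd {x : Fin 8 → F} (h1 : tr x = 1) (h2 : ∀ t, t - t ^ 2 ≠ nm x) :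
    ∃ g : G2 F, g • x = cd !![0, 1; -nm x, 1] 0 := by
  obtain ⟨α, a, b, β, rfl⟩ := exists_mk x
  rw [tr_mk] at h1
  obtain rfl : β = 1 - α := by linear_combination h1
  have hab : a ⬝ᵥ b ≠ 0 := fun h => h2 α (by rw [nm_mk, h]; ring)
  obtain ⟨A, c, hc, e⟩ := exists_sl_single (α := α) (β := 1 - α) (b := b)
    (a := a) (by rintro rfl; simp at hab)
  rw [← nm_smul' (sl A), e] at h2 ⊢
  generalize (ctr A).1 *ᵥ b = d at e h2
  have hd : d 0 ≠ 0 := fun h => h2 α (by simp [dotProduct, Fin.sum_univ_three, h]; ring)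
  let A' : SL(3, F) := ⟨!![1, 0, 0; -(d 1 / d 0), 1, 0; -(d 2 / d 0), 0, 1], by simp [det_fin_three]⟩
  let A'' : SL(3, F) := ⟨!![1, d 1 / d 0, d 2 / d 0; 0, 1, 0; 0, 0, 1], by simp [det_fin_three]⟩
  have hA : ctr A'' = A' := ctr_eq_iff.2 (by
    ext i j; fin_cases i <;> fin_cases j <;> simp [A', A'', Matrix.mul_apply, Fin.sum_univ_three])
  let P : GL (Fin 2) F := GeneralLinearGroup.mkOfDetNeZero !![1, 0; α, c] (by simpa [det_fin_two])
  refine ⟨psi (gamD P) * sl A'' * sl A, ?_⟩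
  have e2 : sl A'' • mk α ![c, 0, 0] d (1 - α) = cd !![α, c; d 0, 1 - α] 0 := by
    rw [sl_smul_mk, hA, mk_eq_cd, cd_inj]
    constructor <;> ext i j <;> fin_cases i <;> fin_cases j <;>
      simp [A', A'', mulVec, dotProduct, Fin.sum_univ_three, hd]
  rw [mul_smul, mul_smul, e, e2, gamD_smul, cd_inj]
  refine ⟨?_, by simp⟩
  rw [Units.mul_inv_eq_iff_eq_mul]
  ext i j; fin_cases i <;> fin_cases j <;>
    simp [P, Matrix.mul_apply, Fin.sum_univ_two, dotProduct, Fin.sum_univ_three] <;> ring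

theorem cov_G2 [Finite F] (h2 : (2 : F) = 0) : Cov (G2 F) := by
  obtain ⟨n, hn⟩ := Orth.exists_aniso_one F
  rw [Orth.aniso_one_iff] at hn
  have hm : ∀ (x : Fin 8 → F) (a b : G2 F), (∃ c : F, a • x = x + c • one F) →
      (∃ c : F, b • x = x + c • one F) → ∃ c : F, (a * b) • x = x + c • one F := by
    rintro x a b ⟨c, hc⟩ ⟨d, hd⟩
    exact ⟨c + d, by rw [mul_smul, hd, smul_add, hc, smul_smul', smul_one', add_smul, add_assoc]⟩
  have hc : ∀ (x y : Fin 8 → F) (t : F) (a g : G2 F), a • (x + t • one F) = y →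
      (∃ c : F, g • x = x + c • one F) → ∃ c : F, (a * g * a⁻¹) • y = y + c • one F := by
    rintro x _ t a g rfl ⟨c, hc⟩
    refine ⟨c, ?_⟩
    simp only [mul_smul, inv_smul_smul, smul_add, hc, smul_smul', smul_one']
    abel
  let T : SL(3, F) := ⟨!![1, 0, 0; 1, 1, 0; 0, 0, 1], by simp [det_fin_three]⟩
  refine cov_of (fun g => ∃ c : F, g • e0 F = e0 F + c • one F)
    (fun g => ∃ c : F, g • cd !![0, 1; -n, 1] 0 = cd !![0, 1; -n, 1] 0 + c • one F)
    ⟨0, by simp⟩ (hm _) ⟨0, by simp⟩ (hm _) ?_ ⟨sl T, ?_⟩ fun g => ?_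
  · obtain ⟨g, hg⟩ := Idem.exists_smul' (x := mk (1 : F) ![1, 0, 0] 0 0) ⟨by simp, by simp⟩
    refine ⟨g⁻¹, fun ⟨c, hc⟩ => ?_⟩
    rw [← hg, inv_smul_smul, hg] at hc
    simpa [Oct.mk, e0, Oct.one] using congrFun hc 1
  · rintro ⟨c, hc⟩
    rw [cd_eq_mk, sl_smul_mk] at hc
    simpa [Oct.mk, Oct.one, T, vecHead] using congrFun hc 2
  · obtain ⟨a, ha, hg⟩ := exists_fixed_class g
    have h3 : ∀ t : F, tr (a + t • one F) = 1 ∧ nm (a + t • one F) = nm a + t ^ 2 + t :=
      fun t => ⟨by simp [ha, h2], by simp [nm_add, nm_smul, ha]⟩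
    by_cases h : ∃ t, t ^ 2 + t = nm a
    · obtain ⟨t, ht⟩ := h
      obtain ⟨x, hx⟩ := Idem.exists_smul' (x := a + t • one F)
        ⟨(h3 t).1, by rw [(h3 t).2]; linear_combination ht + nm a * h2⟩
      exact ⟨x, .inl (hc _ _ _ _ _ hx hg)⟩
    · obtain ⟨t, ht⟩ := Orth.exists_sq_add_eq (y := n) h2 (not_exists.1 h)
        fun t ht => hn t (by linear_combination ht + n * h2)
      have e : nm (a + t • one F) = n := by rw [(h3 t).2]; linear_combination ht + nm a * h2
      obtain ⟨x, hx⟩ := exists_smul_eq_cd (h3 t).1 fun s hs =>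
        hn s (by linear_combination -e - hs + s * h2)
      exact ⟨x, .inr (hc _ _ _ _ _ (e ▸ hx) hg)⟩

end G2

end Cfsg.Lib.Cov
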