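import Cfsg.Agent.Lib.Cov.Basic
import Cfsg.Agent.Lib.Unitary.ElusA
import Cfsg.Agent.Lib.Unitary.MaxGeo
import Cfsg.Agent.Lib.Unitary.Levi

/-! Normal 2-coverings of `SU₄(q)` and `SU₃(3^a)`. -/

namespace Cfsg.Lib.Cov

open Module Polynomial Cfsg.Lib.GLC Cfsg.Lib.Unitary

variable {F V : Type*} [Field F] [AddCommGroup V] [Module F V] [Module.Finite F V]
  {σ : F →+* F} {q : ℕ} {B : V →ₛₗ[σ] V →ₗ[F] F}

section
variable (h : IsHerm σ B) (hσ : IsBar q σ) {g : V ≃ₗ[F] V} (hg : g ∈ UG B)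
include h hσ hg

theorem typ_cases (hn : finrank F V ≠ 0) : ∃ (φ : F[X]) (e : ℕ) (ν : Multiset F[X]), φ.Monic ∧
    Irreducible φ ∧ 0 < e ∧ φ.coeff 0 ≠ 0 ∧ (∀ P ∈ ν, PP P) ∧ ν.map (dual σ) = ν ∧
    (Odd φ.natDegree ∧ dual σ φ = φ ∧ typ (g : End F V) = {φ ^ e} + ν ∧
        e * φ.natDegree + (ν.map natDegree).sum = finrank F V ∨
      typ (g : End F V) = {φ ^ e, dual σ (φ ^ e)} + ν ∧
        2 * (e * φ.natDegree) + (ν.map natDegree).sum = finrank F V) := by
  haveI : Nontrivial V := nontrivial_of_finrank_pos (R := F) (by omega)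
  have hs := h.sd hσ hg
  obtain ⟨P, hP⟩ := Multiset.exists_mem_of_ne_zero (typ_ne_zero (g : End F V))
  have h0 := hs.coeff_ne hP
  obtain ⟨φ, e, h1, h2, he, rfl⟩ := typ_pp _ P hP
  have h3 := coeff_zero_ne_of_dvd (dvd_pow_self φ he.ne') h0
  have h4 := (blocks_typ (g : End F V)).finrank_eq
  obtain ⟨ν, hν, H⟩ := hσ.exists_split hs.2 hP (h1.pow e) h0
  refine ⟨φ, e, ν, h1, h2, he, h3, fun P hP => typ_pp (g : End F V) P ?_, hν,
    H.imp (fun H => ?_) fun H => ⟨H.2, ?_⟩⟩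
  · rcases H with H | H <;> rw [H.2] <;> exact Multiset.mem_add.2 (.inr hP)
  · have := (hσ.dual_pow_eq_iff h1 h2 h3 he).1 H.1
    exact ⟨(hσ.odd_of_dual_eq h1 h2 h3 this).1, this, H.2, by simp [h4, H.2, h1.natDegree_pow]⟩
  · rw [h4, H.2, Multiset.map_add, Multiset.sum_add, Multiset.insert_eq_cons, Multiset.map_cons,
      Multiset.map_singleton, natDegree_dual h0, h1.natDegree_pow]
    simp [two_mul]

theorem exists_eigen_mem {X : Submodule F V} (hX : Disjoint X (perp B X)) (hn : finrank F X = 2)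
    (hX' : ∀ x ∈ X, g x ∈ X) : ∃ v ∈ X, ∃ c : F, v ≠ 0 ∧ g v = c • v := by
  let a : subStab X := ⟨g, mem_subStab_of_le hX'⟩
  obtain ⟨φ, e, ν, h1, h2, he, -, -, -, H⟩ :=
    typ_cases (h.restrict hX) hσ (restr_mem_UG a hg) (by omega)
  have h3 := h2.natDegree_pos
  have h4 := Nat.le_mul_of_pos_left φ.natDegree he
  obtain ⟨v, c, hv, e⟩ := exists_eigen (f := (restr X a : End F X)) h1
    (by rcases H with ⟨⟨k, hk⟩, H⟩ | H <;> omega) (by
      rw [(blocks_typ _).charpoly_eq]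
      refine (dvd_pow_self φ he.ne').trans (Multiset.dvd_prod ?_)
      rcases H with ⟨-, -, H, -⟩ | ⟨H, -⟩ <;> simp [H])
  exact ⟨v, v.2, c, by simpa using hv, congrArg Subtype.val e⟩

/-- Either an invariant non-degenerate `m`-space with `0 < m < n`, or few blocks. -/
theorem typ_cases' (hn : finrank F V ≠ 0)
    (H : ∀ X : Submodule F V, Disjoint X (perp B X) → (∀ x ∈ X, g x ∈ X) → finrank F X = 0 ∨
      finrank F X = finrank F V) : ∃ (φ : F[X]) (e : ℕ), φ.Monic ∧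
    Irreducible φ ∧ 0 < e ∧ φ.coeff 0 ≠ 0 ∧
    (Odd φ.natDegree ∧ dual σ φ = φ ∧ typ (g : End F V) = {φ ^ e} ∧
        e * φ.natDegree = finrank F V ∨
      typ (g : End F V) = {φ ^ e} + Multiset.map (dual σ) {φ ^ e} ∧
        2 * (e * φ.natDegree) = finrank F V) := by
  obtain ⟨φ, e, ν, h1, h2, he, h3, h4, h5, h6⟩ := typ_cases h hσ hg hn
  obtain ⟨X, k1, k2, k3⟩ := (h.exists_nondeg_iff hσ hg).2 ⟨ν, by
    rcases h6 with ⟨-, -, H, -⟩ | ⟨H, -⟩ <;> rw [H] <;> exact Multiset.le_add_left _ _, h5, rfl⟩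
  have := Nat.mul_pos he h2.natDegree_pos
  obtain rfl := eq_zero_of_sum_natDegree h4 (by have := H X k2 k3; omega)
  exact ⟨φ, e, h1, h2, he, h3, by simpa using h6⟩

omit hσ in
theorem exists_eigen_of_one {X : Submodule F V} (hX : Disjoint X (perp B X)) (hn : finrank F X = 1)
    (hX' : ∀ x ∈ X, g x ∈ X) : ∃ (z : V) (c : F), B z z ≠ 0 ∧ g z = c • z := by
  obtain ⟨z, hz, hz'⟩ := finrank_eq_one_iff'.1 hn
  obtain ⟨c, hc⟩ := hz' ⟨g z, hX' _ z.2⟩
  refine ⟨z, c, fun h0 => hz (Subtype.ext (Submodule.disjoint_def.1 hX _ z.2 ?_)),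
    (congrArg Subtype.val hc).symm⟩
  refine mem_perp.2 fun w hw => ?_
  obtain ⟨d, hd⟩ := hz' ⟨w, hw⟩
  rw [← show d • (z : V) = w from congrArg Subtype.val hd]
  simp [h0]

theorem exists_eigen_or (hc : ¬ ∃ (z : V) (c : F), B z z ≠ 0 ∧ g z = c • z) {X : Submodule F V}
    (hX : Disjoint X (perp B X)) (hX' : ∀ x ∈ X, g x ∈ X) :
    finrank F X ≠ 1 ∧ finrank F X + 1 ≠ finrank F V :=
  ⟨fun e => hc (exists_eigen_of_one h hg hX e hX'), fun e => hc (exists_eigen_of_one h hg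
    (h.disjoint_perp_perp hX) (by have := h.finrank_add_finrank_perp X; omega)
    (perp_inv hg hX'))⟩

theorem su4_cases (hn : finrank F V = 4) : (∃ (z : V) (c : F), B z z ≠ 0 ∧ g z = c • z) ∨
    ∃ X : Submodule F V, finrank F X = 2 ∧ X ≤ perp B X ∧ ∀ x ∈ X, g x ∈ X := by
  refine or_iff_not_imp_left.2 fun hc => ?_
  by_cases H : ∃ X : Submodule F V, Disjoint X (perp B X) ∧ (∀ x ∈ X, g x ∈ X) ∧ finrank F X = 2
  · obtain ⟨X, h1, h2, h3⟩ := H
    obtain ⟨x, hx, c, hx0, e1⟩ := exists_eigen_mem h hσ hg h1 h3 h2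
    obtain ⟨y, hy, d, hy0, e2⟩ := exists_eigen_mem h hσ hg (h.disjoint_perp_perp h1)
      (by have := h.finrank_add_finrank_perp X; omega) (perp_inv hg h2)
    have k1 : B x x = 0 := by_contra fun k => hc ⟨x, c, k, e1⟩
    have k2 : B y y = 0 := by_contra fun k => hc ⟨y, d, k, e2⟩
    have k3 : B x y = 0 := mem_perp.1 hy x hx
    have k4 := h.eq_zero_comm.1 k3
    have li : LinearIndependent F ![x, y] := (LinearIndependent.pair_iff' hx0).2 fun a e =>
      hy0 (Submodule.disjoint_def.1 h1 _ (e ▸ X.smul_mem a hx) hy)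
    refine ⟨Submodule.span F (Set.range ![x, y]), by simpa using finrank_span_eq_card li, ?_, ?_⟩
    · rw [Submodule.span_le]
      rintro _ ⟨i, rfl⟩
      refine mem_perp_span.2 ?_
      rintro _ ⟨j, rfl⟩
      fin_cases i <;> fin_cases j <;> assumption
    · change _ ≤ (Submodule.span F (Set.range ![x, y])).comap g.toLinearMap
      rw [Submodule.span_le]
      rintro _ ⟨i, rfl⟩
      fin_cases i
      · change g x ∈ Submodule.span F (Set.range ![x, y])
        exact e1 ▸ Submodule.smul_mem _ c (Submodule.subset_span ⟨0, rfl⟩)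
      · change g y ∈ Submodule.span F (Set.range ![x, y])
        exact e2 ▸ Submodule.smul_mem _ d (Submodule.subset_span ⟨1, rfl⟩)
  obtain ⟨φ, e, h1, h2, he, h3, H⟩ := typ_cases' h hσ hg (by omega) fun X k1 k2 => by
    have := exists_eigen_or h hσ hg hc k1 k2
    have := X.finrank_le
    have : finrank F X ≠ 2 := fun k => H ⟨X, k1, k2, k⟩
    omega
  rcases H with ⟨⟨k, hk⟩, h4, h5, h6⟩ | ⟨h5, h6⟩
  swap
  · obtain ⟨X, -, k1, -, k2, k3, -⟩ := h.exists_polar hσ hg h5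
    exact ⟨X, by rw [k2]; simp [h1.natDegree_pow]; omega, k3, k1⟩
  have h7 : φ.natDegree = 1 := by
    have : φ.natDegree ∣ 4 := ⟨e, by rw [← hn, ← h6, mul_comm]⟩
    have := Nat.le_of_dvd (by norm_num) this
    interval_cases φ.natDegree <;> omega
  obtain ⟨a, rfl⟩ := exists_eq_X_sub_C h1 h7
  have ha : a ≠ 0 := by simpa using h3
  have ha' : σ a * a = 1 := by
    rw [dual_X_sub_C ha, sub_right_inj, C_inj] at h4
    rw [← mul_inv_cancel₀ (a := σ a) (by simpa using ha), h4]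
  have hb : Blocks (g : End F V) (jt a {4}) := by
    rw [h7, hn, mul_one] at h6
    have := blocks_typ (g : End F V)
    rwa [h5, h6] at this
  set N : End F V := (g : End F V) - a • 1 with hN
  have k1 : finrank F (LinearMap.ker (N ^ 2)) = 2 := by simpa using hb.jt_finrank_ker 2
  have k2 : LinearMap.range (N ^ 2) = LinearMap.ker (N ^ 2) :=
    Submodule.eq_of_le_of_finrank_eq (LinearMap.range_le_ker_iff.2 (by
      rw [← End.mul_eq_comp, ← pow_add]; exact hb.jt_pow_eq_zero_iff.2 (by simp)))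
      (by have := LinearMap.finrank_range_add_finrank_ker (N ^ 2); omega)
  have k3 : ∀ v, N (g v) = g (N v) := fun v => by simp [hN]
  have k4 : ∀ u v, B (N u) (g v) = -σ a * B u (N v) := fun u v => by
    simp only [hN, LinearMap.sub_apply, LinearMap.smul_apply, End.one_apply, map_sub,
      LinearEquiv.coe_coe, hg u v, LinearMap.map_smulₛₗ, smul_eq_mul, RingHom.id_apply]
    linear_combination -B u v * ha'
  refine ⟨LinearMap.ker (N ^ 2), k1, fun y hy => mem_perp.2 fun x hx => ?_, fun x hx => ?_⟩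
  · obtain ⟨x, rfl⟩ := k2 ▸ hx
    obtain ⟨y, rfl⟩ := g.surjective y
    obtain ⟨y, rfl⟩ := g.surjective y
    rw [LinearMap.mem_ker, pow_two, End.mul_apply, k3, k3, k3, k3] at hy
    rw [pow_two, End.mul_apply, k4, k3, k4, show N (N y) = 0 by simpa using hy]
    simp
  · rw [LinearMap.mem_ker, pow_two, End.mul_apply] at hx ⊢
    rw [k3, k3, hx, map_zero]

end

theorem conj_eigen [Finite F] (h : IsHerm σ B) {z₀ : V} (h0 : B z₀ z₀ ≠ 0) (g : SUG B)
    (H : ∃ (z : V) (c : F), B z z ≠ 0 ∧ g.1 z = c • z) :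
    ∃ x : SUG B, x * g * x⁻¹ ∈ (subStab (F ∙ z₀)).subgroupOf (SUG B) := by
  obtain ⟨z, c, hz, e⟩ := H
  obtain ⟨x, hx, d, hd, e'⟩ := h.exists_SUG_nonisotropic h0 hz
  refine ⟨⟨x, hx⟩⁻¹, mem_subStab_of_le fun v hv => ?_⟩
  obtain ⟨t, rfl⟩ := Submodule.mem_span_singleton.1 hv
  refine Submodule.mem_span_singleton.2 ⟨t * c, x.injective ?_⟩
  simp [e', e, smul_smul, mul_comm, mul_left_comm]

theorem subgroupOf_ne_top [Finite F] (h : IsHerm σ B) {W : Submodule F V} {k : ℕ}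
    (hk : finrank F W = k + 1) (hn : k + 1 < finrank F V) :
    (subStab W).subgroupOf (SUG B) ≠ ⊤ := fun e =>
  h.not_SUG_le_subStab (by omega) (by rintro rfl; simp at hk)
    (by rintro rfl; rw [finrank_top] at hk; omega) (Subgroup.subgroupOf_eq_top.1 e)

theorem cov_psu4 [Fintype F] (hF : Fintype.card F = q ^ 2) : Cov (PSU 4 F q) := by
  obtain ⟨σ, hσ⟩ := exists_isBar hF
  have h := hσ.isHerm (ι := Fin 4)
  have hn : finrank F (Fin 4 → F) = 4 := by simp
  refine Cov.quot (Cov.of_equiv ?_ (hσ.suEquiv 4).symm) (commutator_SU hF (by omega) (by omega))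
  obtain ⟨z, hz, -⟩ := h.exists_nonisotropic_orth (by omega) 0
  obtain ⟨W, h1, h2⟩ := h.exists_totIso (k := 2) (by omega)
  refine ⟨_, _, subgroupOf_ne_top h (W := F ∙ z) (k := 0)
    (finrank_span_singleton (by rintro rfl; simp at hz)) (by omega),
    subgroupOf_ne_top h h1 (by omega), fun g => ?_⟩
  rcases su4_cases h hσ g.2.1 hn with H | ⟨X, k1, k2, k3⟩
  · exact (conj_eigen h hz g H).imp fun _ => .inl
  obtain ⟨a, ha, rfl⟩ := h.exists_map_totIso k2 h2 (k1.trans h1.symm)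
  obtain ⟨b, hb, e⟩ : LinearEquiv.det a ∈ _ := (h.map_det_subStab hσ k2 (by omega)).ge
    ((h.map_det_UG (by omega)).le (Subgroup.mem_map_of_mem _ ha))
  refine ⟨⟨a * b⁻¹, mem_SUG.2 ⟨mul_mem ha (inv_mem hb.1), by simp [e]⟩⟩,
    .inr (mem_subStab_of_le ?_)⟩
  rintro _ ⟨v, hv, rfl⟩
  have := ((subStab X).inv_mem hb.2 _).1 (k3 _ ((hb.2 v).1 hv))
  exact ⟨_, this, by simp⟩

theorem not_semilinear {K : Type*} [Field K] [Algebra F K] [Module K V] [IsScalarTower F K V]
    {t : V → V} {l : V →ₗ[F] F} {u v : V} (hu : u ≠ 0) (hv : l v ≠ 0) (h0 : l u = 0)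
    (ht : ∀ v, t v = v + l v • u) {κ : K} (h1 : l (κ • u) = 0)
    (H : ∀ κ : K, ∃ κ' : K, ∀ v, t (κ • v) = κ' • t v) : ∃ c : F, algebraMap F K c = κ := by
  obtain ⟨κ', H⟩ := H κ
  have e := H u
  rw [ht, ht, h0, h1, zero_smul, add_zero, add_zero] at e
  obtain rfl := smul_left_injective K hu e
  have e := H v
  rw [ht, ht, smul_add, add_right_inj, ← algebraMap_smul K, ← algebraMap_smul K (l v),
    smul_smul] at e
  refine ⟨l (κ • v) / l v, ?_⟩
  rw [map_div₀, smul_left_injective K hu e, mul_div_cancel_right₀ _ (by simpa using hv)]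

theorem cov_psu3 [Fintype F] (hF : Fintype.card F = q ^ 2) {a : ℕ} (ha : 1 ≤ a)
    (hq : q = 3 ^ a) : Cov (PSU 3 F q) := by
  obtain ⟨σ, hσ⟩ := exists_isBar hF
  obtain ⟨K, _, _, _, hn, hK⟩ := hσ.exists_ext (n := 3) (by omega)
  letI := Fintype.ofFinite K
  obtain ⟨s, hs⟩ := exists_isBar (F := K) (q := q ^ 3)
    (by rw [← Nat.card_eq_fintype_card, hK]; ring)
  have h3 : (3 : F) = 0 := by
    have := hσ.cast_q
    rw [hq, Nat.cast_pow] at this
    exact_mod_cast pow_eq_zero_iff (by omega) |>.1 this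
  haveI : Fact (Nat.Prime 3) := ⟨Nat.prime_three⟩
  haveI : CharP F 3 := (CharP.charP_iff_prime_eq_zero Nat.prime_three).2 (by exact_mod_cast h3)
  have e1 : ∀ c, s (algebraMap F K c) = algebraMap F K (σ c) := fun c => by
    rw [hs.eq, ← map_pow, show q ^ 3 = q ^ 2 * q by ring, pow_mul, ← hF, FiniteField.pow_card,
      hσ.eq]
  have e2 : ∀ y, σ (Algebra.trace F K y) = Algebra.trace F K (s y) := fun y =>
    (algebraMap F K).injective (by
      rw [← e1, FiniteField.algebraMap_trace_eq_sum_pow, FiniteField.algebraMap_trace_eq_sum_pow]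
      simp)
  let B : K →ₛₗ[σ] K →ₗ[F] F := LinearMap.mk₂'ₛₗ σ (RingHom.id F)
    (fun u v => Algebra.trace F K (s u * v)) (fun u u' v => by simp [add_mul])
    (fun c u v => by
      rw [Algebra.smul_def, map_mul s, e1, mul_assoc, ← Algebra.smul_def, map_smul])
    (fun u v v' => by simp [mul_add]) fun c u v => by simp
  have hB : ∀ u v, B u v = Algebra.trace F K (s u * v) := fun _ _ => rfl
  have h : IsHerm σ B := ⟨hσ.ne_id, hσ.invol, fun u v => by
    rw [hB, hB, e2, map_mul, hs.invol, mul_comm], fun u hu => by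
      simpa using (traceForm_nondegenerate F K).1 (s u) hu⟩
  refine Cov.quot (Cov.of_equiv ?_ (h.nonempty_sug_equiv hσ hn).some)
    (commutator_SU hF (by omega) fun e => ?_)
  swap
  · have : 3 ∣ q := hq ▸ dvd_pow_self 3 (by omega)
    omega
  haveI : Finite (K ≃ₗ[F] K) := finite_linearEquiv
  obtain ⟨z, hz, -⟩ := h.exists_nonisotropic_orth (by omega) 0
  let Q : (K ≃ₗ[F] K) → Prop := fun g => ∀ κ : K, ∃ κ' : K, ∀ v, g (κ • v) = κ' • g v
  refine ⟨_, subOf (fun g => Q g.1) (fun κ => ⟨κ, fun _ => rfl⟩) fun a b ha hb κ => ?_,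
    subgroupOf_ne_top h (W := F ∙ z) (k := 0)
    (finrank_span_singleton (by rintro rfl; simp at hz)) (by omega), fun e => ?_, fun g => ?_⟩
  · obtain ⟨κ₁, k1⟩ := hb κ
    obtain ⟨κ₂, k2⟩ := ha κ₁
    exact ⟨κ₂, fun v => (congrArg a.1 (k1 v)).trans (k2 _)⟩
  · obtain ⟨u, hu0, hu⟩ := h.exists_isotropic (by omega)
    obtain ⟨c, hc0, hc⟩ := h.exists_skew
    obtain ⟨y, hy, huy⟩ := h.exists_nonisotropic_orth (by omega) u
    obtain ⟨v, hv⟩ := h.exists_eq_one hu0
    have : Q (transv B u c hu (by simp [hc])) :=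
      e.ge (Subgroup.mem_top (⟨_, h.transv_mem_SUG u c hu (by simp [hc])⟩ : SUG B))
    obtain ⟨d, hd⟩ := not_semilinear (l := c • B u) (v := v) (κ := y / u) hu0 (by simp [hv, hc0])
      (by simp [hu]) (fun _ => rfl) (by simp [hu0, huy]) this
    rw [eq_div_iff hu0, ← Algebra.smul_def] at hd
    simp [← hd, hu] at hy
  by_cases hc : ∃ (z : K) (c : F), B z z ≠ 0 ∧ g.1 z = c • z
  · exact (conj_eigen h hz g hc).imp fun _ => .inl
  obtain ⟨g', k1, k2, k3⟩ : ∃ g' ∈ UG B, Q g' ∧ Sim (g.1 : End F K) (g' : End F K) := by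
    obtain ⟨φ, e, h1, h2, he, h3, H⟩ := typ_cases' h hσ g.2.1 (by omega) fun X k1 k2 => by
      have := exists_eigen_or h hσ g.2.1 hc k1 k2
      have := X.finrank_le
      omega
    obtain ⟨-, h4, h5, h6⟩ := H.resolve_right fun H => by omega
    have hb := blocks_typ (g.1 : End F K)
    rw [h5] at hb
    rw [hn] at h6
    rcases (Nat.prime_three.eq_one_or_self_of_dvd _ ⟨_, h6.symm⟩) with rfl | rfl
    · rw [one_mul] at h6
      obtain ⟨b, rfl⟩ := exists_minpoly_eq (K := K) h1 h2 (by rw [h6, hn])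
      have hb0 : b ≠ 0 := by rintro rfl; simp at h3
      have hb1 := (hσ.odd_of_dual_minpoly_eq hb0 h4).2
      rw [h6, pow_succ, ← hs.eq] at hb1
      refine ⟨(LinearEquiv.smulOfNeZero K K b hb0).restrictScalars F, fun u v => ?_,
        fun κ => ⟨κ, fun v => mul_left_comm _ _ _⟩,
        (pow_one (minpoly F b) ▸ hb).sim (blocks_lmul (h6.trans hn.symm))⟩
      change Algebra.trace F K (s (b * u) * (b * v)) = _
      rw [map_mul s, mul_mul_mul_comm, hb1, one_mul, hB]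
    · obtain ⟨c, rfl⟩ := exists_eq_X_sub_C h1 (by omega)
      have : c ^ 3 = 1 := by
        rw [← hn, ← Blocks.jt_det (d := {3}) hb]; exact (mem_SUG'.1 g.2).2
      obtain rfl : c = 1 := by
        rwa [← sub_eq_zero, ← one_pow 3, ← sub_pow_char, pow_eq_zero_iff (by omega),
          sub_eq_zero] at this
      let τ := FiniteField.frobeniusAlgEquivOfAlgebraic F K
      refine ⟨τ.toLinearEquiv, fun u v => ?_, fun κ => ⟨τ κ, fun v => map_mul τ _ _⟩, hb.sim ?_⟩
      · change Algebra.trace F K (s (τ u) * τ v) = _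
        rw [show s (τ u) = τ (s u) from map_pow s u _, ← map_mul, Algebra.trace_eq_of_algEquiv, hB]
      · have e := FiniteField.minpoly_frobeniusAlgHom F K
        have := blocks_of_minpoly (f := (FiniteField.frobeniusAlgHom F K).toLinearMap)
          (by rw [e, ← C_1, natDegree_X_pow_sub_C])
        rw [e, hn] at this
        rwa [C_1, sub_pow_char, one_pow]
  obtain ⟨e, l1, l2⟩ := h.exists_isometry_of_sim h hσ g.2.1 k1 k3
  obtain ⟨k, hk⟩ : 3 ∣ q := hq ▸ dvd_pow_self 3 (by omega)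
  have l3 : LinearEquiv.det e ∈ normOne σ :=
    (h.map_det_UG (by omega)).le (Subgroup.mem_map_of_mem _ l1)
  refine ⟨⟨e * scal K (LinearEquiv.det e ^ k), mem_SUG.2
    ⟨mul_mem l1 (scal_mem_UG (pow_mem l3 k)), ?_⟩⟩, .inr fun κ => ?_⟩
  · have := mem_normOne.1 l3
    rw [hσ.norm_eq, hk] at this
    rw [map_mul, det_scal, hn, ← pow_mul, ← pow_succ', mul_comm]
    exact Units.ext (by simpa using this)
  · obtain ⟨κ', H⟩ := k2 κ
    refine ⟨κ', fun v => ?_⟩
    have : ∀ v, (e * scal K (LinearEquiv.det e ^ k) * g.1 *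
        (e * scal K (LinearEquiv.det e ^ k))⁻¹) v = g' v := fun v => by
      rw [mul_assoc e, ← scal_commute, ← mul_assoc, mul_inv_rev, mul_assoc, mul_inv_cancel_left]
      simp [l2]
    exact (this _).trans ((H v).trans (congrArg _ (this _).symm))

end Cfsg.Lib.Cov
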