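import Cfsg.Agent.Lib.Cov.Even
import Cfsg.Agent.Lib.Cov.Unit
import Cfsg.Agent.Lib.Symp.Unip2
import Cfsg.Agent.Lib.GLC.SelfDual

/-! `Sp₆(3^a)`, I: the subgroup `ΓSp₂(q³)` and model elements in it. -/

namespace Cfsg.Lib.Cov

open Module Polynomial Cfsg.Lib.GLC Cfsg.Lib.Symp

variable {F V W : Type*} [Field F] [AddCommGroup V] [Module F V] [Module.Finite F V]
  [AddCommGroup W] [Module F W] [Module.Finite F W]
  {B : LinearMap.BilinForm F V} {f : End F V} {C : LinearMap.BilinForm F W} {g : End F W}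

theorem blocks_of_pow {φ : F[X]} (h1 : φ.Monic) (h2 : Irreducible φ) {k : ℕ}
    (h3 : aeval f φ ^ (k + 1) = 0) (h4 : aeval f φ ^ k ≠ 0)
    (h5 : (k + 1) * φ.natDegree = finrank F V) : Blocks f {φ ^ (k + 1)} := by
  obtain ⟨j, hj, e⟩ := (dvd_prime_pow h2.prime _).1 (minpoly.dvd F f (by rwa [map_pow]))
  have e := eq_of_monic_of_associated (minpoly.monic (LinearMap.isIntegral f)) (h1.pow j) e
  obtain rfl : j = k + 1 := by
    by_contra hne
    obtain ⟨i, rfl⟩ : ∃ i, k = i + j := ⟨k - j, by omega⟩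
    exact h4 (by rw [pow_add, ← map_pow _ φ j, ← e, minpoly.aeval, mul_zero])
  exact e ▸ blocks_of_minpoly (by rw [e, h1.natDegree_pow, h5])

theorem exists_isim_regular [Finite F] (h2 : (2 : F) ≠ 0) (hf : SpE B f) (hg : SpE C g) {m : ℕ}
    (h : Blocks f (jt 1 {m + 1})) (h' : Blocks g (jt 1 {m + 1})) :
    ∃ c : F, c ≠ 0 ∧ ISim B f (c • C) g := by
  obtain ⟨e, he⟩ := h.sim h'
  let B' : LinearMap.BilinForm F V := C.comp e.toLinearMap e.toLinearMap
  have hf' : FE 1 B' f := (ISim.spE (B := B') ⟨e, fun _ _ => rfl, he⟩ hg).fE h2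
  have k0 : (f - 1) ^ (m + 1) = 0 := by
    simpa using (h.jt_pow_eq_zero_iff (k := m + 1)).2 (by simp)
  have k1 : LinearMap.ker ((f - 1) ^ m) = LinearMap.range ((f - 1) ^ 1) :=
    ker_eq_range (r := 1) h
  have k2 : LinearMap.ker ((f - 1) ^ 1) = LinearMap.range ((f - 1) ^ m) :=
    ker_eq_range (r := 1) (by rwa [add_comm])
  rw [pow_one] at k1 k2
  have k3 : finrank F (LinearMap.range ((f - 1) ^ m)) = 1 := by
    have := h.jt_finrank_ker_one (by simp)
    rwa [one_smul, k2] at this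
  obtain ⟨⟨_, v, rfl⟩, hv, hv'⟩ := finrank_eq_one_iff'.1 k3
  have k4 : ∀ u, ∃ a : F, ((f - 1) ^ m) u = a • ((f - 1) ^ m) v ∧ ∃ w, u = a • v + (f - 1) w :=
    fun u => by
      obtain ⟨a, ha⟩ := hv' ⟨_, u, rfl⟩
      have ha : ((f - 1) ^ m) u = a • ((f - 1) ^ m) v := (congrArg Subtype.val ha).symm
      obtain ⟨w, hw⟩ : u - a • v ∈ LinearMap.range (f - 1) := by
        rw [← k1, LinearMap.mem_ker, map_sub, map_smul, ha, sub_self]
      exact ⟨a, ha, w, by rw [hw]; abel⟩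
  have k5 : ∀ {D : LinearMap.BilinForm F V}, FE 1 D f → D v (((f - 1) ^ m) v) ≠ 0 ∧
      ∀ (a : F) w, D (a • v + (f - 1) w) (((f - 1) ^ m) v) = a * D v (((f - 1) ^ m) v) :=
    fun {D} hD => by
      have : ∀ (a : F) w, D (a • v + (f - 1) w) (((f - 1) ^ m) v) =
          a * D v (((f - 1) ^ m) v) := fun a w => by
        rw [map_add, LinearMap.add_apply, hD.left_fixed (by
          rw [← End.mul_apply, ← pow_succ', k0]; rfl)]
        simp
      refine ⟨fun h0 => hv (Subtype.ext (hD.nondegenerate.2 _ fun u => ?_)), this⟩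
      obtain ⟨a, -, w, rfl⟩ := k4 u
      rw [this, h0, mul_zero]
  obtain ⟨l1, l2⟩ := k5 (hf.fE h2)
  obtain ⟨l3, l4⟩ := k5 hf'
  have hc := div_ne_zero l1 l3
  set c := B v (((f - 1) ^ m) v) / B' v (((f - 1) ^ m) v) with hc'
  have hf'' : FE 1 (c • B') f := ⟨h2, fun u v => by simp [hf'.symm u v],
    fun u hu => hf'.nd u fun v => by simpa [hc] using hu v, fun u v => by simp [hf'.inv]⟩
  refine ⟨c, hc, ((hf.fE h2).isim_of_top hf'' k0 k1.le fun u w => ?_).symm.trans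
    ⟨e, fun _ _ => rfl, he⟩⟩
  obtain ⟨a, -, x, rfl⟩ := k4 u
  obtain ⟨b, hb, -⟩ := k4 w
  simp only [hb, map_smul, LinearMap.smul_apply, l2, l4, smul_eq_mul, hc']
  field_simp

variable (F) (E : Type*) [Field E] [Algebra F E]

/-- The trace of the determinant form on `E²`. -/
noncomputable def trDet : LinearMap.BilinForm F (E × E) :=
  LinearMap.mk₂ F (fun u v => Algebra.trace F E (u.1 * v.2 - u.2 * v.1))
    (fun _ _ _ => by rw [← map_add]; congr 1; simp; ring)
    (fun _ _ _ => by rw [← map_smul]; simp [smul_sub])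
    (fun _ _ _ => by rw [← map_add]; congr 1; simp; ring)
    fun _ _ _ => by rw [← map_smul]; simp [smul_sub]

variable {F E}

theorem trDet_apply (u v : E × E) :
    trDet F E u v = Algebra.trace F E (u.1 * v.2 - u.2 * v.1) := rfl

theorem trDet_isAlt : (trDet F E).IsAlt := fun v => by rw [trDet_apply, mul_comm]; simp

variable (E) in
/-- `(V, B, f)` looks like an element of `ΓSp₂(E)`. -/
def Sem (B : LinearMap.BilinForm F V) (f : End F V) : Prop :=
  ∃ g : End F (E × E), ISim B f (trDet F E) g ∧ ∀ κ : E, ∃ κ' : E, ∀ v, g (κ • v) = κ' • g v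

omit [Module.Finite F V] in
theorem Sem.of_smul {c : F} (hc : c ≠ 0) {g : End F (E × E)} (h : ISim B f (c • trDet F E) g)
    (h' : ∀ κ : E, ∃ κ' : E, ∀ v, g (κ • v) = κ' • g v) : Sem E B f := by
  let δ : (E × E) ≃ₗ[F] E × E := (LinearEquiv.smulOfNeZero F E c hc).prodCongr (.refl F E)
  have h1 : ∀ (κ : E) v, δ (κ • v) = κ • δ v := fun κ v => by simp [δ]
  have h2 : ∀ (κ : E) v, δ.symm (κ • v) = κ • δ.symm v := fun κ v =>
    δ.injective (by rw [h1]; simp)
  refine ⟨δ.conj g, h.trans ⟨δ, fun u v => ?_, fun v => by simp⟩, fun κ => ?_⟩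
  · simp [δ, trDet_apply]; ring
  · obtain ⟨κ', h⟩ := h' κ
    exact ⟨κ', fun v => by simp [h2, h, h1]⟩

omit [Module.Finite F V] in
theorem Sem.neg (h : Sem E B ((-1 : F) • f)) : Sem E B f := by
  obtain ⟨g, h, h'⟩ := h
  refine ⟨(-1 : F) • g, by simpa using h.smul (-1), fun κ => ?_⟩
  obtain ⟨κ', h⟩ := h' κ
  exact ⟨κ', fun v => by simp [h]⟩

variable [Finite F] [Finite E]

theorem trDet_nondegenerate : (trDet F E).Nondegenerate :=
  nondegenerate_of_isAlt trDet_isAlt fun x hx => Prod.ext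
    ((traceForm_nondegenerate F E).1 _ fun y => by simpa [trDet_apply] using hx (0, y))
    ((traceForm_nondegenerate F E).1 _ fun y => by simpa [trDet_apply] using hx (y, 0))

theorem spE_trDet {g : End F (E × E)} (τ : E ≃ₐ[F] E) (h : ∀ u v : E × E,
    (g u).1 * (g v).2 - (g u).2 * (g v).1 = τ (u.1 * v.2 - u.2 * v.1)) : SpE (trDet F E) g :=
  ⟨trDet_isAlt, trDet_nondegenerate, fun u v => by
    rw [trDet_apply, h, Algebra.trace_eq_of_algEquiv, trDet_apply]⟩

theorem sem_of_algHom (h2 : (2 : F) ≠ 0) (hf : SpE B f) (hV : finrank F V = 2 * finrank F E)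
    (ρ : E →ₐ[F] End F V) (h1 : ∀ a x y, B (ρ a x) y = B x (ρ a y))
    (h3 : ∀ a, Commute f (ρ a)) : Sem E B f := by
  haveI : Nontrivial V := nontrivial_of_finrank_pos (R := F) (by
    have := finrank_pos (R := F) (M := E); omega)
  obtain ⟨x, hx⟩ := exists_ne (0 : V)
  let ψ : V → E →ₗ[F] V := fun x => LinearMap.applyₗ x ∘ₗ ρ.toLinearMap
  obtain ⟨m, hm⟩ := exists_factor (ψ x) (Algebra.trace F E) fun a ha => by
    by_contra h
    have h0 : a ≠ 0 := by rintro rfl; simp at h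
    have : ρ a⁻¹ (ρ a x) = x := by rw [← End.mul_apply, ← map_mul, inv_mul_cancel₀ h0]; simp
    exact hx (by rw [← this, show ρ a x = 0 from ha, map_zero])
  obtain ⟨y, hy⟩ := exists_rep B hf.nd.1 (-m)
  have k1 : ∀ a b z, B (ρ a z) (ρ b z) = 0 := fun a b z => by
    rw [h1, ← End.mul_apply, ← map_mul]
    exact eq_zero_of_eq_neg h2 (by rw [hf.alt.neg_eq, h1])
  have k2 : ∀ a b, B (ρ a y) (ρ b x) = -Algebra.trace F E (a * b) := fun a b => by
    rw [h1, ← End.mul_apply, ← map_mul, hy, ← hm]; rfl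
  let Φ : (E × E) →ₗ[F] V := (ψ x).coprod (ψ y)
  have k3 : ∀ u v, B (Φ u) (Φ v) = trDet F E u v := fun u v => by
    change B (ρ u.1 x + ρ u.2 y) (ρ v.1 x + ρ v.2 y) = _
    simp only [map_add, LinearMap.add_apply, k1, k2, ← hf.alt.neg_eq (ρ v.2 y), trDet_apply,
      map_sub, mul_comm v.2]
    ring
  have k4 : Function.Injective Φ := (injective_iff_map_eq_zero Φ).2 fun u hu =>
    trDet_nondegenerate.1 u fun v => by rw [← k3, hu]; simp
  let e := LinearMap.linearEquivOfInjective Φ k4 (by simp [hV, two_mul])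
  have k5 : ∀ (κ : E) u, e (κ • u) = ρ κ (e u) := fun κ u => by
    change ρ (κ * u.1) x + ρ (κ * u.2) y = ρ κ (ρ u.1 x + ρ u.2 y)
    simp
  refine ⟨e.symm.conj f, ISim.symm ⟨e, k3, fun v => by simp⟩, fun κ => ⟨κ, fun v => ?_⟩⟩
  apply e.injective
  simp [k5, ← End.mul_apply, (h3 κ).eq]

end Cfsg.Lib.Cov
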