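import Cfsg.Agent.Lib.Cov.Sp6A

/-! `Sp₆(3^a)`, II: the normal 2-covering by `Sp₂ ⊥ Sp₄` and `ΓSp₂(q³)`. -/

namespace Cfsg.Lib.Cov

open Module Polynomial Cfsg.Lib.GLC Cfsg.Lib.Symp

variable {F V : Type*} [Field F] [AddCommGroup V] [Module F V] [Module.Finite F V]
  {B : LinearMap.BilinForm F V} {f : End F V} [Finite F]
  {E : Type*} [Field E] [Algebra F E] [Finite E]

theorem exists_frob3 (hE : finrank F E = 3) : ∃ (τ : E ≃ₐ[F] E) (w : E), (∀ x, τ (τ (τ x)) = x) ∧
    w + τ w + τ (τ w) ≠ 0 := by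
  letI := Fintype.ofFinite F
  letI := Fintype.ofFinite E
  obtain ⟨w, hw⟩ := Algebra.trace_surjective (K := F) (L := E) 1
  refine ⟨FiniteField.frobeniusAlgEquivOfAlgebraic F E, w, fun x => ?_, ?_⟩
  · simp only [FiniteField.coe_frobeniusAlgEquivOfAlgebraic, ← pow_mul]
    rw [← pow_three', ← hE, ← card_eq_pow_finrank, FiniteField.pow_card]
  · have := FiniteField.algebraMap_trace_eq_sum_pow F E w
    rw [hw, hE, map_one] at this
    simp only [FiniteField.coe_frobeniusAlgEquivOfAlgebraic, ← pow_mul]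
    simp only [Finset.sum_range_succ, Finset.range_zero, Finset.sum_empty, zero_add, pow_zero,
      pow_one, Nat.card_eq_fintype_card, pow_two] at this
    exact this ▸ one_ne_zero

section Models
variable (hE : finrank F E = 3) (h3 : (3 : E) = 0) {τ : E ≃ₐ[F] E} {w : E}
  (hτ : ∀ x, τ (τ (τ x)) = x) (hw : w + τ w + τ (τ w) ≠ 0)
include hE h3 hτ hw

theorem blocks_smul_frob {a : F} (ha : a ≠ 0) : Blocks (a • τ.toLinearMap) {(X - C a) ^ 3} := by
  have e : aeval (a • τ.toLinearMap) (X - C a) = a • (τ.toLinearMap - 1) := by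
    simp [smul_sub, Algebra.algebraMap_eq_smul_one]
  refine blocks_of_pow (monic_X_sub_C a) (irreducible_X_sub_C a) ?_ (fun h => hw ?_) (by simp [hE])
  · rw [e, _root_.smul_pow, smul_eq_zero_of_right]
    ext x
    simp [pow_succ, hτ]
    linear_combination (τ x - τ (τ x)) * h3
  · rw [e, _root_.smul_pow, smul_eq_zero_iff_right (pow_ne_zero _ ha)] at h
    have := LinearMap.congr_fun h w
    simp [pow_succ] at this
    linear_combination this + τ w * h3

theorem model_split {a : F} (ha : a ≠ 0) : ∃ g : End F (E × E), SpE (trDet F E) g ∧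
    (∀ κ : E, ∃ κ' : E, ∀ v, g (κ • v) = κ' • g v) ∧
    Blocks g ({(X - C a) ^ 3} + {(X - C a⁻¹) ^ 3}) :=
  ⟨(a • τ.toLinearMap).prodMap (a⁻¹ • τ.toLinearMap), spE_trDet τ fun u v => by
      simp [smul_smul, ha], fun κ => ⟨τ κ, fun v => by simp⟩,
    (blocks_smul_frob hE h3 hτ hw ha).prodMap (blocks_smul_frob hE h3 hτ hw (inv_ne_zero ha))⟩

theorem model_quad {φ : F[X]} (h1 : φ.Monic) (h2 : Irreducible φ) (h4 : φ.natDegree = 2)
    (h0 : φ.coeff 0 = 1) : ∃ g : End F (E × E), SpE (trDet F E) g ∧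
    (∀ κ : E, ∃ κ' : E, ∀ v, g (κ • v) = κ' • g v) ∧ Blocks g {φ ^ 3} := by
  obtain ⟨b, rfl⟩ : ∃ b, φ = X ^ 2 + C b * X + 1 := ⟨φ.coeff 1, by
    have := eq_quadratic_of_degree_le_two (p := φ) (by rw [degree_eq_natDegree h1.ne_zero, h4]; rfl)
    rwa [← h4, h1.coeff_natDegree, h0, h4, C_1, one_mul] at this⟩
  let Φ : End F (E × E) := τ.toLinearMap.prodMap τ.toLinearMap
  let S : End F (E × E) := (-LinearMap.snd F E E).prod
    (LinearMap.fst F E E - b • LinearMap.snd F E E)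
  have e : aeval (S * Φ) (X ^ 2 + C b * X + 1) = (1 - Φ) * (b • (S * Φ) + Φ + 1) := by
    ext x <;> simp [S, Φ, pow_two, ← Algebra.smul_def] <;> module
  have hc : Commute (1 - Φ) (b • (S * Φ) + Φ + 1) := by
    ext x <;> simp [S, Φ] <;> module
  refine ⟨S * Φ, spE_trDet τ fun u v => by simp [S, Φ, mul_sub, sub_mul, mul_comm],
    fun κ => ⟨τ κ, fun v => by simp [S, Φ, mul_sub]⟩,
    blocks_of_pow h1 h2 ?_ (fun h => hw ?_) (by simp [hE, h4])⟩
  · rw [e, hc.mul_pow, mul_eq_zero_of_left]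
    ext x <;> simp [Φ, pow_succ, hτ] <;> linear_combination (τ (τ x) - τ x) * h3
  · have := congrArg Prod.fst (LinearMap.congr_fun (e ▸ h) (w, 0))
    simp [S, Φ, pow_succ, hτ, Algebra.smul_def] at this
    have k1 := eval_ne_zero_of_two_le h2 h4.ge 1
    have k2 := eval_ne_zero_of_two_le h2 h4.ge (-1)
    have k3 : (algebraMap F E b + 2) * (2 - algebraMap F E b) ≠ 0 := by
      rw [← map_ofNat (algebraMap F E) 2, ← map_add, ← map_sub, ← map_mul, _root_.map_ne_zero]
      exact mul_ne_zero (fun h => k1 (by simp; linear_combination h))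
        fun h => k2 (by simp; linear_combination h)
    refine mul_left_cancel₀ k3 ?_
    linear_combination this +
      (w + τ w + 2 * τ (τ w) - algebraMap F E b ^ 2 * w) * h3

theorem model_reg : ∃ g : End F (E × E), SpE (trDet F E) g ∧
    (∀ κ : E, ∃ κ' : E, ∀ v, g (κ • v) = κ' • g v) ∧ Blocks g (jt 1 {6}) := by
  let g : End F (E × E) := (τ.toLinearMap ∘ₗ (LinearMap.fst F E E +
    LinearMap.mulLeft F w ∘ₗ LinearMap.snd F E E)).prod (τ.toLinearMap ∘ₗ LinearMap.snd F E E)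
  have hg : ∀ v, g v = (τ v.1 + τ w * τ v.2, τ v.2) := fun v => by simp [g]
  have e : ∀ v : E × E, ((g - 1) ^ 3 : End F _) v = ((w + τ w + τ (τ w)) * v.2, 0) := fun v => by
    ext <;> simp [pow_succ, hg, hτ]
    · linear_combination (τ v.1 + τ w * τ v.2 - τ (τ v.1) - τ (τ w) * τ (τ v.2) -
        τ w * τ (τ v.2)) * h3
    · linear_combination (τ v.2 - τ (τ v.2)) * h3
  have e' : aeval g (X - C 1 : F[X]) = g - 1 := by simp
  refine ⟨g, spE_trDet τ fun u v => by simp [hg]; ring, fun κ => ⟨τ κ, fun v => ?_⟩,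
    blocks_of_pow (monic_X_sub_C 1) (irreducible_X_sub_C 1) (k := 5) ?_ (fun h => hw ?_)
      (by rw [natDegree_X_sub_C]; simp [hE])⟩
  · ext <;> simp [hg]; ring
  · refine LinearMap.ext fun v => ?_
    rw [e', show 5 + 1 = 3 + 3 from rfl, pow_add, End.mul_apply, e, e]; simp
  · have := LinearMap.congr_fun h (0, w)
    rw [e', show 5 = 2 + 3 from rfl, pow_add, End.mul_apply, e] at this
    have := congrArg Prod.fst this
    simp [pow_succ, hg, hτ] at this
    refine pow_eq_zero_iff two_ne_zero |>.1 ?_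
    linear_combination this + (w + τ w + τ (τ w)) * τ w * h3

end Models

omit [Finite F] in
theorem pure_cases (hf : SpE B f) (H : ∀ X Y, OSplit B f X Y → X = ⊥ ∨ X = ⊤) {c : F}
    (hc : c * c = 1) : (∀ v, f v = c • v → v = 0) ∨ ∃ k, (f - c • 1) ^ k = 0 := by
  obtain ⟨R, h1, h2⟩ := exists_eq_pow_rootMultiplicity_mul_and_not_dvd f.charpoly
    f.charpoly_monic.ne_zero c
  generalize rootMultiplicity c f.charpoly = k at h1
  have S := hf.osplit_ker (Q := (X - C c) ^ (k + 1)) (R := R)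
    (((irreducible_X_sub_C c).coprime_iff_not_dvd.2 h2).pow_left)
    (by rw [pow_succ', mul_assoc, ← h1, map_mul, LinearMap.aeval_self_charpoly, mul_zero])
    (by simpa [coeff_zero_eq_eval_zero] using left_ne_zero_of_mul_eq_one hc)
    (by rw [map_pow, rdual_X_sub_C hc])
  rw [aeval_X_sub_C_pow] at S
  refine (H _ _ S).imp (fun h v hv => LinearMap.ker_eq_bot'.1 h v ?_)
    fun h => ⟨_, LinearMap.ker_eq_top.1 h⟩
  simp [pow_succ, hv]

theorem typ_pure (hf : SpE B f) (H : ∀ X Y, OSplit B f X Y → X = ⊥ ∨ X = ⊤) [Nontrivial V]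
    (h1 : ∀ v, f v = v → v = 0) (h2 : ∀ v, f v = -v → v = 0) :
    ∃ (φ : F[X]) (e : ℕ), φ.Monic ∧ Irreducible φ ∧ 0 < e ∧ φ.coeff 0 ≠ 0 ∧
      φ.eval 1 ≠ 0 ∧ φ.eval (-1) ≠ 0 ∧
      (rdual φ = φ ∧ typ f = {φ ^ e} ∨ typ f = {φ ^ e} + {rdual (φ ^ e)}) := by
  classical
  have k0 : ∀ P ∈ typ f, ∀ c : F, c * c = 1 → P.eval c ≠ 0 := fun P hP c hc h0 => by
    obtain ⟨v, hv⟩ := ((End.hasEigenvalue_iff_isRoot_charpoly f c).2 (by
      rw [(blocks_typ f).charpoly_eq]
      exact IsRoot.dvd h0 (Multiset.dvd_prod hP))).exists_hasEigenvector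
    rcases mul_self_eq_one_iff.1 hc with rfl | rfl
    · exact hv.2 (h1 v (by simpa using hv.apply_eq_smul))
    · exact hv.2 (h2 v (by simpa using hv.apply_eq_smul))
  have k1 : ∀ μ : Multiset F[X], (∀ P ∈ μ, P ∈ typ f) → μ.map rdual = μ → Occ μ :=
    fun μ h h' => SpT.occ ⟨h', fun c hc k hk => by
      rw [Multiset.count_eq_zero_of_notMem fun e => k0 _ (h _ e) c hc (by simp [hk.pos.ne'])]
      simp⟩ fun P hP => ⟨typ_pp f P (h P hP), hf.coeff_ne P (h P hP)⟩
  have k2 : ∀ μ ν : Multiset F[X], typ f = μ + ν → μ.map rdual = μ → μ ≠ 0 → typ f = μ :=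
    fun μ ν e h h0 => by
      have h' : ν.map rdual = ν := by
        have := hf.map_rdual_typ
        rwa [e, Multiset.map_add, h, add_right_inj] at this
      obtain ⟨m, a, ha⟩ := k1 μ (fun P hP => e ▸ Multiset.mem_add.2 (.inl hP)) h
      obtain ⟨n, b, hb⟩ := k1 ν (fun P hP => e ▸ Multiset.mem_add.2 (.inr hP)) h'
      obtain ⟨X, Y, S, l1, l2⟩ := (isim_of_sim_of_ne hf ((spE_sp a).prodMap (spE_sp b))
        ((e ▸ blocks_typ f).sim (ha.prodMap hb)) h1 h2).exists_osplit_prod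
      have l3 := (l1.sim.blocks ha).finrank_eq
      have l4 := (l2.sim.blocks hb).finrank_eq
      have pp : ∀ P ∈ μ + ν, PP P := e ▸ typ_pp f
      rcases H _ _ S with rfl | rfl
      · exact absurd (Unitary.eq_zero_of_sum_natDegree
          (fun P hP => pp P (Multiset.mem_add.2 (.inl hP))) (by simpa using l3.symm)) h0
      · rw [e, Unitary.eq_zero_of_sum_natDegree (ν := ν)
          (fun P hP => pp P (Multiset.mem_add.2 (.inr hP))) (by
            rw [← l4, top_disjoint.1 S.compl.disjoint, finrank_bot]), add_zero]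
  obtain ⟨P, hP⟩ := Multiset.exists_mem_of_ne_zero (typ_ne_zero f)
  have h0 := hf.coeff_ne P hP
  obtain ⟨φ, e, l1, l2, he, rfl⟩ := typ_pp _ P hP
  have l3 := Unitary.coeff_zero_ne_of_dvd (dvd_pow_self φ he.ne') h0
  refine ⟨φ, e, l1, l2, he, l3, fun h => k0 _ hP 1 (by simp) (by simp [h, he.ne']),
    fun h => k0 _ hP (-1) (by simp) (by simp [h, he.ne']), ?_⟩
  obtain ⟨ν, hν⟩ := Multiset.exists_cons_of_mem hP
  by_cases h : rdual (φ ^ e) = φ ^ e
  · exact .inl ⟨(rdual_pow_eq_iff l1 l2 l3 he).1 h, k2 _ ν hν (by simp [h]) (by simp)⟩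
  · have : rdual (φ ^ e) ∈ typ f := hf.map_rdual_typ ▸ Multiset.mem_map_of_mem _ hP
    rw [hν, Multiset.mem_cons, or_iff_right h] at this
    obtain ⟨ν, rfl⟩ := Multiset.exists_cons_of_mem this
    refine .inr (k2 _ ν (by simp [hν]) ?_ (by simp))
    rw [Multiset.map_add, Multiset.map_singleton, Multiset.map_singleton,
      rdual_rdual (l1.pow e) h0, add_comm]

theorem sem_unip (hE : finrank F E = 3) (h3 : (3 : F) = 0) (hf : SpE B f) (hV : finrank F V = 6)
    (H : ∀ X Y, OSplit B f X Y → X = ⊥ ∨ X = ⊤) {k : ℕ} (h : (f - (1 : F) • 1) ^ k = 0) :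
    Sem E B f := by
  have h2 : (2 : F) ≠ 0 := fun h => one_ne_zero (α := F) (by linear_combination h3 - h)
  have h3' : (3 : E) = 0 := by rw [← map_ofNat (algebraMap F E), h3, map_zero]
  obtain ⟨τ, w, hτ, hw⟩ := exists_frob3 hE
  obtain ⟨d, hd, e⟩ := exists_jt h
  have hs : d.sum = 6 := (e ▸ blocks_typ f).jt_sum.trans hV
  have key : ∀ d₁ d₂, d = d₁ + d₂ → Par 1 d₁ → 0 < d₁.sum → d₁.sum = 6 ∧ d = d₁ := by
    rintro d₁ d₂ rfl h1 h0
    obtain ⟨X, Y, S, k1⟩ := (hf.fE h2).exists_osplit_jt e h1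
    have k2 := (k1 ▸ blocks_typ _).jt_sum
    have k3 : d₁.sum = 6 := by
      rcases H _ _ S with rfl | rfl
      · rw [finrank_bot] at k2; omega
      · rw [k2, finrank_top, hV]
    rw [Multiset.sum_add, k3, add_eq_left, Multiset.sum_eq_zero_iff] at hs
    refine ⟨k3, ?_⟩
    rw [Multiset.eq_zero_of_forall_notMem (s := d₂) fun a ha =>
      (hd a (Multiset.mem_add.2 (.inr ha))).ne' (hs a ha), add_zero]
  obtain ⟨a, ha⟩ := Multiset.exists_mem_of_ne_zero (s := d) (by rintro rfl; simp at hs)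
  have h0 := hd a ha
  obtain ⟨d', hd'⟩ := Multiset.exists_cons_of_mem ha
  rcases Nat.even_or_odd a with he | ho
  · obtain ⟨k1, rfl⟩ := key {a} d' hd' (fun b hb => by
      rw [Multiset.count_singleton, if_neg]
      · simp
      · rintro rfl; exact Nat.not_even_iff_odd.2 he.add_one hb) (by simpa)
    obtain rfl : a = 6 := by simpa using k1
    obtain ⟨g, l1, l2, l3⟩ := model_reg hE h3' hτ hw
    obtain ⟨c, hc, l4⟩ := exists_isim_regular h2 hf l1 (e ▸ blocks_typ f) l3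
    exact .of_smul hc l4 l2
  · have := (hf.fE h2).par e a ho.add_one
    rw [hd', Multiset.count_cons_self, Nat.even_add_one, Nat.not_even_iff_odd] at this
    obtain ⟨d'', rfl⟩ := Multiset.exists_cons_of_mem (Multiset.count_pos.1 this.pos)
    obtain ⟨k1, rfl⟩ := key {a, a} d'' (by simp [hd']) (fun b _ => by
      by_cases hb : b = a <;> simp [hb]) (by simpa)
    obtain rfl : a = 3 := by simp at k1; omega
    obtain ⟨g, l1, l2, l3⟩ := model_split hE h3' hτ hw (one_ne_zero (α := F))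
    have l4 : typ g = jt 1 {3, 3} := Blocks.typ_eq (by simpa [jt] using l3) (jt_pp _ (by simp))
    have l5 : ∀ b, ¬ (b ∈ ({3, 3} : Multiset ℕ) ∧ Odd (b + 1)) := fun b hb => by
      obtain rfl : b = 3 := by simpa using hb.1
      exact absurd hb.2 (by decide)
    exact ⟨g, (hf.fE h2).isim_of_sg (l1.fE h2) ⟨k, by simpa using h⟩
      (sim_iff_typ_eq.2 (e.trans l4.symm)) (funext fun b => ((hf.fE h2).sg_eq_one e (l5 b)).trans
        ((l1.fE h2).sg_eq_one l4 (l5 b)).symm), l2⟩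

theorem sem_of_ne (hE : finrank F E = 3) (h3 : (3 : F) = 0) (hf : SpE B f) (hV : finrank F V = 6)
    (H : ∀ X Y, OSplit B f X Y → X = ⊥ ∨ X = ⊤)
    (h1 : ∀ v, f v = v → v = 0) (h2 : ∀ v, f v = -v → v = 0) : Sem E B f := by
  have h3' : (3 : E) = 0 := by rw [← map_ofNat (algebraMap F E), h3, map_zero]
  obtain ⟨τ, w, hτ, hw⟩ := exists_frob3 hE
  haveI : Nontrivial V := nontrivial_of_finrank_pos (R := F) (by omega)
  obtain ⟨φ, e, l1, l2, he, l3, l4, l5, h⟩ := typ_pure hf H h1 h2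
  have hb := blocks_typ f
  have hd := hb.finrank_eq
  suffices (∃ g : End F (E × E), SpE (trDet F E) g ∧ (∀ κ : E, ∃ κ' : E, ∀ v,
      g (κ • v) = κ' • g v) ∧ Blocks g (typ f)) ∨ Sem E B f from
    this.elim (fun ⟨g, k1, k2, k3⟩ => ⟨g, isim_of_sim_of_ne hf k1 (hb.sim k3) h1 h2, k2⟩) id
  rcases h with ⟨h, e1⟩ | e1
  · obtain ⟨k1, k, hk⟩ := even_of_rdual_eq l1 h l3 l4 l5
    rw [e1] at hb hd ⊢
    simp only [Multiset.map_singleton, Multiset.sum_singleton, l1.natDegree_pow, hV] at hd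
    have : e ∣ 3 := ⟨k, by rw [hk] at hd; linarith⟩
    rcases Nat.prime_three.eq_one_or_self_of_dvd _ this with rfl | rfl
    swap
    · exact .inl (model_quad hE h3' hτ hw l1 l2 (by omega) k1)
    rw [pow_one] at hb
    obtain ⟨ρ, hρ⟩ := exists_algHom E f fun ψ m1 m2 m3 => by
      rw [hb.charpoly_eq, Multiset.prod_singleton] at m3
      rw [eq_of_monic_of_associated m1 l1 (m2.associated_of_dvd l2 m3), hE]; omega
    obtain ⟨u, rfl⟩ := hf.isUnit
    have m1 : (u⁻¹).1 = u.1 ^ Nat.card F ^ 3 := by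
      have := hb.pow_eq_one_iff.2 fun P hP => Multiset.mem_singleton.1 hP ▸
        dvd_of_rdual_eq l1 l2 l3 h (k := 3) (by omega)
      rw [← one_mul (u⁻¹).1, ← this, pow_succ, Units.mul_inv_cancel_right]
    refine .inr (sem_of_algHom (fun h => one_ne_zero (α := F) (by linear_combination h3 - h)) hf
      (by omega) ρ (fun a x y => ?_) fun a => ?_)
    · obtain ⟨R, hR⟩ := hρ a
      letI := Fintype.ofFinite F
      letI := Fintype.ofFinite E
      have m2 : ∀ n, expand F (Fintype.card F ^ n) R = R ^ Fintype.card F ^ n := fun n => by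
        induction n with
        | zero => simp
        | succ n ih => rw [pow_succ', expand_mul, ih, FiniteField.expand_card, ← pow_mul, mul_comm]
      rw [hR, hf.adj_aeval, m1, ← expand_aeval, Nat.card_eq_fintype_card, m2, map_pow, ← hR,
        ← map_pow, ← hE, ← card_eq_pow_finrank, FiniteField.pow_card]
    · obtain ⟨R, hR⟩ := hρ a
      exact hR ▸ commute_aeval (.refl _) R
  · have l6 : (φ ^ e).coeff 0 ≠ 0 := hf.coeff_ne _ (by simp [e1])
    rw [e1] at hd ⊢
    simp only [Multiset.map_add, Multiset.sum_add, Multiset.map_singleton, Multiset.sum_singleton,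
      Unitary.natDegree_dual l6, l1.natDegree_pow, hV] at hd
    refine .inl ?_
    rcases Nat.prime_three.eq_one_or_self_of_dvd e ⟨φ.natDegree, by omega⟩ with rfl | rfl
    · obtain ⟨b, rfl⟩ := exists_minpoly_eq (K := E) l1 l2 ⟨1, by omega⟩
      have hb0 : b ≠ 0 := by rintro rfl; simp at l3
      have m1 : Blocks (sing F E (Units.mk0 b hb0)).1 {minpoly F b} :=
        blocks_lmul (a := b) (by omega)
      have m2 := m1.units_inv
      rw [← map_inv] at m2
      rw [pow_one]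
      exact ⟨_, spE_trDet .refl fun u v => by simp; field_simp,
        fun κ => ⟨κ, fun v => by simp [mul_left_comm]⟩, m1.prodMap m2⟩
    · obtain ⟨a, rfl⟩ := Unitary.exists_eq_X_sub_C l1 (by omega)
      have ha : a ≠ 0 := by simpa using l3
      rw [map_pow, Unitary.dual_X_sub_C ha]
      exact model_split hE h3' hτ hw ha

theorem cov_psp6 {F : Type*} [Field F] [Finite F] (h3 : (3 : F) = 0) : Cov (PSp 3 F) := by
  haveI : Fact (Nat.Prime 3) := ⟨Nat.prime_three⟩
  haveI : CharP F 3 := (CharP.charP_iff_prime_eq_zero Nat.prime_three).2 (by exact_mod_cast h3)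
  let E := FiniteField.Extension F 3 3
  have hE : finrank F E = 3 := FiniteField.finrank_extension F 3 3
  have hV : finrank F (E × E) = 6 := by simp [hE]
  have hA := trDet_isAlt (F := F) (E := E)
  have hB := trDet_nondegenerate (F := F) (E := E)
  refine Cov.quot (Cov.of_equiv ?_ (nonempty_isom_equiv hA hB (by simp [hE])).some)
    (commutator_sp_eq_top (by simp))
  haveI : Finite ((E × E) ≃ₗ[F] E × E) := .of_injective _ DFunLike.coe_injective
  obtain ⟨X₀, Y₀, S₀, hX, hY⟩ := exists_osplit_one hA hB (k := 1) (l := 2) hV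
  refine cov_of (fun g => ∀ x ∈ X₀, g.1 x ∈ X₀)
    (fun g => ∀ κ : E, ∃ κ' : E, ∀ v, g.1 (κ • v) = κ' • g.1 v) (fun _ h => h)
    (fun a b ha hb x hx => ha _ (hb x hx)) (fun κ => ⟨κ, fun _ => rfl⟩) (fun a b ha hb κ => ?_)
    ?_ ⟨tv hA (1, 0) 1, fun h => ?_⟩ fun g => ?_
  · obtain ⟨κ₁, k1⟩ := hb κ
    obtain ⟨κ₂, k2⟩ := ha κ₁
    exact ⟨κ₂, fun v => (congrArg a.1 (k1 v)).trans (k2 _)⟩
  · obtain ⟨x, hx, hx0⟩ := X₀.exists_mem_ne_zero_of_ne_bot (by rintro rfl; simp at hX)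
    obtain ⟨y, hy, hy0⟩ := Y₀.exists_mem_ne_zero_of_ne_bot (by rintro rfl; simp at hY)
    obtain ⟨a, ha, rfl⟩ := exists_isom_of_ne_zero hA hB hx0 hy0
    exact ⟨⟨a, ha⟩, fun h => hy0 (Submodule.disjoint_def.1 S₀.compl.disjoint _ (h x hx) hy)⟩
  · obtain ⟨w, hw⟩ := Algebra.trace_surjective (K := F) (L := E) 1
    have : ∀ κ : E, ∃ c : F, algebraMap F E c = κ := fun κ =>
      not_semilinear (l := (trDet F E).flip (1, 0)) (v := (0, w)) (u := (1, 0)) (by simp)
        (by simp [trDet_apply, hw]) (by simp [trDet_apply]) (fun v => by simp [tv_apply])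
        (by simp [trDet_apply]) h
    have := (LinearEquiv.ofBijective (Algebra.linearMap F E)
      ⟨(algebraMap F E).injective, this⟩).finrank_eq
    simp [hE] at this
  have hf := SpE.of_isom hA hB g
  by_cases H : ∃ X Y, OSplit (trDet F E) g.1.toLinearMap X Y ∧ finrank F X = 2
  · obtain ⟨X, Y, S, h⟩ := H
    have k1 := S.spE_left hf
    have k2 := S₀.spE_left (.one hA hB)
    obtain ⟨e, he⟩ := exists_isometry_of_finrank_eq k1.alt k1.nd k2.alt k2.nd (by omega)
    obtain ⟨a, rfl, -⟩ := exists_isom_map_of_isometry hA hB e he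
    refine ⟨a, .inl ?_⟩
    rintro _ ⟨x, hx, rfl⟩
    exact ⟨_, S.invL x hx, by simp⟩
  have H' : ∀ X Y, OSplit (trDet F E) g.1.toLinearMap X Y → X = ⊥ ∨ X = ⊤ := fun X Y S => by
    obtain ⟨k, hk⟩ := (S.spE_left hf).even_finrank
    have := Submodule.finrank_add_eq_of_isCompl S.compl
    have k1 : finrank F X ≠ 2 := fun h => H ⟨X, Y, S, h⟩
    have k2 : finrank F Y ≠ 2 := fun h => H ⟨Y, X, S.symm hA, h⟩
    by_cases h0 : k = 0
    · exact .inl (Submodule.finrank_eq_zero.1 (by omega))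
    · exact .inr (Submodule.eq_top_of_finrank_eq (by omega))
  obtain ⟨g', ⟨e, k1, k2⟩, k3⟩ : Sem E (trDet F E) g.1.toLinearMap := by
    rcases pure_cases hf H' (one_mul 1) with h1 | ⟨k, h1⟩
    swap
    · exact sem_unip hE h3 hf hV H' h1
    rcases pure_cases hf H' (c := -1) (by simp) with h2 | ⟨k, h2⟩
    · exact sem_of_ne hE h3 hf hV H' (by simpa using h1) (by simpa using h2)
    refine (sem_unip hE h3 (hf.smul (c := -1) (by simp)) hV (fun X Y S => H' X Y
      ⟨S.compl, S.orth, fun x hx => X.neg_mem_iff.1 (by simpa using S.invL x hx),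
        fun x hx => Y.neg_mem_iff.1 (by simpa using S.invR x hx)⟩) (k := k) ?_).neg
    rw [show (-1 : F) • (g.1.toLinearMap : End F _) - (1 : F) • 1 =
      (-1 : F) • (g.1.toLinearMap - (-1 : F) • 1) by module, _root_.smul_pow, h2, smul_zero]
  refine ⟨⟨e, k1⟩, .inr fun κ => ?_⟩
  obtain ⟨κ', h⟩ := k3 κ
  have : ∀ v, ((⟨e, k1⟩ : isom _) * g * (⟨e, k1⟩ : isom _)⁻¹).1 v = g' v := fun v =>
    (k2 _).trans (by simp)
  exact ⟨κ', fun v => by rw [this, this, h]⟩

end Cfsg.Lib.Cov
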